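import Cfsg.Agent.J4Fus72.Tools
import Cfsg.Agent.Jf18.VShape

/-!
The elementary abelian subgroup of order `2 ^ 11` over a given hexad subgroup, described by its
image and its part in the 2-core.
-/

set_option autoImplicit false

namespace CfsgLib.J4Type67.Setup

open scoped Pointwise

universe u

variable {H : Type u} [Group H] [Finite H] (d : Setup H)

/-- The part in the 2-core. -/
noncomputable abbrev hexD (b : M) : Subgroup H := d.pre (d.rep.F (conjS b hex))

/-- The candidate for the elementary subgroup. -/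
noncomputable def hexV (b : M) : Subgroup H :=
  ((conjS b hex).map (MulAut.conj : M →* MulAut M)).comap d.π ⊓
    Subgroup.centralizer (d.hexD b : Set H)

theorem card_hexD (b : M) : Nat.card (d.hexD b) = 2 ^ 7 := by
  rw [hexD, d.card_pre, d.rep.card_F_conj, d.rep.card_F_hex]
  norm_num

theorem hexD_le (b : M) : d.hexD b ≤ d.E := fun _ hx => (d.mem_pre.1 hx).1

theorem exists_elementary_image (b : M) : ∃ V : Subgroup H,
    (∀ a ∈ V, a * a = 1) ∧ Nat.card V = 2 ^ 11 ∧ d.hexD b ≤ V ∧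
      V ≤ ((conjS b hex).map (MulAut.conj : M →* MulAut M)).comap d.π := by
  obtain ⟨T⟩ : Nonempty (Sylow 2 H) := inferInstance
  obtain ⟨S, hS⟩ := d.innPre_eq_sylow T
  obtain ⟨g, hgS, hcases⟩ := elem_in_sylow S
  rw [← hS] at hgS hcases
  obtain ⟨V, ⟨hVT, ⟨hVc, hVs⟩, hV⟩, -⟩ := d.existsUnique_elementary T
  obtain ⟨hVi, hVE⟩ := d.shape T hcases hVT hVc hVs hV
  have hm : MulAut.conj (b * g⁻¹) ∈ d.C.map d.π := by rw [d.map_C]; exact ⟨_, rfl⟩
  obtain ⟨c, hc, hcb⟩ := hm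
  have hσ : d.sigma ⟨c, hc⟩ = b * g⁻¹ := conj_injective_M (by rw [d.conj_sigma]; exact hcb)
  refine ⟨conjS c V, ?_, ?_, ?_, ?_⟩
  · rintro _ ⟨a, ha, rfl⟩
    rw [← map_mul, hVs a ha, map_one]
  · rw [card_conjS, hV]
  · intro x hx
    obtain ⟨hxE, hxF⟩ := d.mem_pre.1 hx
    rw [mem_conjS]
    have hxE' : c⁻¹ * x * c ∈ d.E := by simpa using d.normalE c⁻¹ x hxE
    refine (Subgroup.mem_inf.1 (hVE.ge (d.mem_pre.2 ⟨hxE', ?_⟩))).1
    have hb : conjS b hex = conjS (d.rep.proj (QuotientGroup.mk ⟨c, hc⟩)) (conjS g hex) := by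
      show _ = conjS (d.sigma ⟨c, hc⟩) (conjS g hex)
      rw [hσ]
      ext a
      rw [mem_conjS, mem_conjS, mem_conjS]
      simp [mul_assoc]
    rw [hb, d.rep.mem_F_conj, ← QuotientGroup.mk_inv] at hxF
    have e : d.q (c⁻¹ * x * c) hxE' = d.actH c⁻¹ (d.q x hxE) := by
      rw [d.actH_q]; simp only [inv_inv]
    rw [e]
    exact hxF
  · rintro _ ⟨v, hv, rfl⟩
    obtain ⟨m, hm, hmv⟩ := hVi v hv
    refine ⟨b * g⁻¹ * m * (b * g⁻¹)⁻¹, ?_, ?_⟩
    · show b * g⁻¹ * m * (b * g⁻¹)⁻¹ ∈ conjS b hex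
      rw [mem_conjS]
      have := mem_conjS.1 hm
      simpa [mul_assoc] using this
    · show MulAut.conj _ = d.π (c * v * c⁻¹)
      rw [map_mul d.π, map_mul d.π, map_inv, hcb, ← hmv, map_mul, map_mul, map_inv]

/-- It is elementary abelian of order `2 ^ 11` and meets the 2-core in the given part. -/
theorem hexV_spec (b : M) : (∀ a ∈ d.hexV b, a * a = 1) ∧ Nat.card (d.hexV b) = 2 ^ 11 ∧
    d.hexV b ⊓ d.E = d.hexD b := by
  obtain ⟨V, hVs, hV, hDV, hVi⟩ := d.exists_elementary_image b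
  have hVc : ∀ a ∈ V, ∀ a' ∈ V, a * a' = a' * a := fun a ha a' ha' => comm_of_sq hVs ha ha'
  have hDc : ∀ x ∈ d.hexD b, ∀ y ∈ d.hexD b, Commute x y := fun x hx y hy =>
    hVc x (hDV hx) y (hDV hy)
  have hVle : V ≤ d.hexV b := fun v hv => ⟨hVi hv, Subgroup.mem_centralizer_iff.2 fun y hy =>
    hVc y (hDV hy) v hv⟩
  have hzD : d.z ∈ d.hexD b := d.mem_pre.2 ⟨d.zmem, by
    rw [d.q_one_iff.2 (Subgroup.mem_zpowers _)]
    exact one_mem _⟩
  -- centraliser of the part in the 2-core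
  have hCE : d.E ⊓ Subgroup.centralizer (d.hexD b : Set H) = d.hexD b := by
    refine (Subgroup.eq_of_le_of_card_ge (H := d.hexD b)
      (K := d.E ⊓ Subgroup.centralizer (d.hexD b : Set H)) (fun x hx => ⟨d.hexD_le b hx,
      Subgroup.mem_centralizer_iff.2 fun y hy => (hDc y hy x hx).eq⟩) ?_).symm
    have h := d.card_centralizer_eq (U := d.hexD b) (d.hexD_le b) hzD
    rw [d.card_hexD] at h ⊢
    omega
  -- the kernel part centralising it lies in the 2-core
  have hker : ∀ x ∈ d.hexV b, x ∈ d.π.ker → x ∈ d.E := by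
    intro x hx hk
    obtain ⟨i, hi⟩ := d.ker_decomp hk
    have hne : d.rep.F (conjS b hex) ≠ ⊥ := by
      intro h
      have := d.rep.card_F_conj b hex
      rw [h, Subgroup.card_bot, d.rep.card_F_hex] at this
      norm_num at this
    obtain ⟨w, hw, hw1⟩ := (Subgroup.bot_or_exists_ne_one _).resolve_left hne
    obtain ⟨a, ha, rfl⟩ := d.q_surj w
    have haD : a ∈ d.hexD b := d.mem_pre.2 ⟨ha, hw⟩
    have hxa : Commute x a := (Subgroup.mem_centralizer_iff.1 hx.2 a haD).symm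
    have h2 : d.actH (d.p ^ i) (d.q a ha) = d.q a ha := by
      have h1 : d.actH x (d.q a ha) = d.q a ha := by
        rw [d.conj_mem_Z ha, hxa.eq, mul_inv_cancel_right, mul_inv_cancel]
        exact one_mem _
      have h3 := d.act_one_of_mem hi
      rw [map_mul, mul_eq_one_iff_eq_inv] at h3
      rw [h3] at h1
      conv_lhs => rw [← h1]
      simp
    rcases (show i % 3 = 0 ∨ i % 3 = 1 ∨ i % 3 = 2 by omega) with h | h | h
    all_goals
      have e : d.p ^ i = d.p ^ (i % 3) := by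
        conv_lhs => rw [← Int.emod_add_mul_ediv i 3]
        rw [zpow_add, zpow_mul, show d.p ^ (3 : ℤ) = 1 by exact_mod_cast d.p3, one_zpow, mul_one]
      rw [e, h] at h2 hi
    · simpa using hi
    · rw [zpow_one] at h2
      exact absurd (d.rep.fpf _ h2) hw1
    · rw [show (2 : ℤ) = ((2 : ℕ) : ℤ) from rfl, zpow_natCast, map_pow, pow_two] at h2
      have h3 : d.actH d.p (d.q a ha) = d.q a ha := by
        have e3 : d.actH d.p * (d.actH d.p * d.actH d.p) = 1 := by
          rw [← map_mul, ← map_mul, ← mul_assoc, ← pow_three', d.p3, map_one]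
        have h3' := DFunLike.congr_fun e3 (d.q a ha)
        simp only [MulAut.mul_apply, MulAut.one_apply] at h3' h2
        rw [h2] at h3'
        exact h3'
      exact absurd (d.rep.fpf _ h3) hw1
  have hle : d.hexV b ⊓ d.E ≤ d.hexD b := fun x hx => hCE.le ⟨hx.2, hx.1.2⟩
  have hEeq : d.hexV b ⊓ d.E = d.hexD b := le_antisymm hle fun x hx =>
    ⟨hVle (hDV hx), d.hexD_le b hx⟩
  have hcard : Nat.card (d.hexV b) ≤ 2 ^ 11 := by
    let f : d.hexV b →* MulAut M := d.π.comp (d.hexV b).subtype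
    have h := Subgroup.card_mul_index f.ker
    rw [Subgroup.index_ker] at h
    have h1 : Nat.card f.ker ≤ 2 ^ 7 := by
      rw [← d.card_hexD b]
      exact Nat.card_le_card_of_injective
        (fun y => (⟨y.1.1, hEeq.le ⟨y.1.2, hker _ y.1.2 y.2⟩⟩ : d.hexD b))
        fun y y' e => Subtype.ext (Subtype.ext (congrArg Subtype.val e :))
    have h2 : Nat.card f.range ≤ 16 := by
      refine (Subgroup.card_le_of_le (K := (conjS b hex).map (MulAut.conj : M →* MulAut M))
        ?_).trans (le_of_eq ?_)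
      · rintro _ ⟨y, rfl⟩
        exact y.2.1
      · rw [Subgroup.card_map_of_injective conj_injective_M, card_conjS, card_hex]
    rw [← h]
    exact (Nat.mul_le_mul h1 h2).trans (by norm_num)
  have heq : V = d.hexV b := Subgroup.eq_of_le_of_card_ge hVle (by rw [hV]; exact hcard)
  exact ⟨heq ▸ hVs, heq ▸ hV, hEeq⟩

/-- An element normalising the hexad subgroup normalises both. -/
theorem hexV_normalized {b : M} {c : H} (hc : c ∈ d.C)
    (hb : conjS (d.sigma ⟨c, hc⟩) (conjS b hex) = conjS b hex) :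
    conjS c (d.hexV b) = d.hexV b := by
  have hD : ∀ x ∈ d.hexD b, c * x * c⁻¹ ∈ d.hexD b := by
    intro x hx
    obtain ⟨hxE, hxF⟩ := d.mem_pre.1 hx
    refine d.mem_pre.2 ⟨d.normalE c x hxE, ?_⟩
    have := d.rep.F_invariant (x := QuotientGroup.mk (⟨c, hc⟩ : d.C)) hb hxF
    exact this
  have hD' : ∀ x ∈ d.hexD b, c⁻¹ * x * c ∈ d.hexD b := by
    have heq : conjS c (d.hexD b) = d.hexD b :=
      Subgroup.eq_of_le_of_card_ge (by rintro _ ⟨x, hx, rfl⟩; exact hD x hx) (card_conjS _ _).ge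
    intro x hx
    rw [← mem_conjS, heq]
    exact hx
  refine Subgroup.eq_of_le_of_card_ge ?_ (card_conjS _ _).ge
  rintro _ ⟨v, ⟨⟨m, hm, hmv⟩, hvc⟩, rfl⟩
  refine ⟨⟨d.sigma ⟨c, hc⟩ * m * (d.sigma ⟨c, hc⟩)⁻¹, ?_, ?_⟩,
    Subgroup.mem_centralizer_iff.2 fun y hy => ?_⟩
  · exact hb.le ⟨m, hm, rfl⟩
  · show MulAut.conj _ = d.π (c * v * c⁻¹)
    rw [map_mul d.π, map_mul d.π, map_inv, ← hmv, ← d.conj_sigma ⟨c, hc⟩, map_mul, map_mul,
      map_inv]
  · show y * (c * v * c⁻¹) = c * v * c⁻¹ * y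
    have h := Subgroup.mem_centralizer_iff.1 hvc _ (hD' y hy)
    calc y * (c * v * c⁻¹) = c * (c⁻¹ * y * c * v) * c⁻¹ := by group
      _ = c * (v * (c⁻¹ * y * c)) * c⁻¹ := by rw [h]
      _ = _ := by group

end CfsgLib.J4Type67.Setup
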