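import Cfsg.Agent.J4Five67.Hex
import Cfsg.Agent.J4Five67.Symm
import Cfsg.Agent.J4Five67.Canonical
import Cfsg.Agent.Jf18.Invol
import Cfsg.Agent.Jf18.SylowThree
import Cfsg.Agent.J4Facts21.M22

/-!
The centraliser of an element of order five inside the involution centraliser of a group of
Janko-four type.
-/

set_option autoImplicit false

namespace CfsgLib.Jf18.Ctx

open CfsgLib.J4Type67
open scoped Pointwise

universe u

variable {G : Type u} [Group G] [Finite G] (c : Ctx G)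

/-- The part of the 2-core centralised by an element. -/
abbrev fixFive (q : G) : Subgroup G := c.E ⊓ Subgroup.centralizer ({q} : Set G)

/-- An elementary subgroup of order eight of that part, coming from one of order `2 ^ 11`. -/
structure FiveLayer (q : G) (A : Subgroup G) : Prop where
  le : A ≤ c.fixFive q
  sq : ∀ a ∈ A, a * a = 1
  zmem : c.z ∈ A
  card : Nat.card A = 8
  pmem : ∀ a ∈ A, c.p * a * c.p⁻¹ ∈ A
  rot : ∀ a ∈ A, a ≠ 1 → a ≠ c.z → ∀ b ∈ A, b ≠ 1 →
    b = c.z ∨ ∃ k ∈ c.H, k * a * k⁻¹ = b ∨ k * (a * c.z) * k⁻¹ = b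
  big : ∃ V : Subgroup G, (∀ x ∈ V, x * x = 1) ∧ Nat.card V = 2 ^ 11 ∧ c.z ∈ V ∧
    A = V ⊓ Subgroup.centralizer ({q} : Set G) ∧ q ∈ Subgroup.normalizer (V : Set G)

theorem card_H : Nat.card c.H = 5 * (3 ^ 3 * 19712 * 2 ^ 13) := by
  rw [sylowThree_card_H (H := c.H) c.setup]
  norm_num

/-- An element of order five of the centraliser of `p`. -/
theorem exists_five : ∃ q ∈ c.C, orderOf q = 5 := by
  haveI : Fact (Nat.Prime 5) := ⟨by norm_num⟩
  have h5 : 5 ∣ Nat.card c.C := by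
    refine dvd_trans ?_ (Subgroup.card_dvd_of_surjective c.sig c.sig_surjective)
    rw [CfsgLib.Mathieu.card_M22]; norm_num
  obtain ⟨q, hq⟩ := exists_prime_orderOf_dvd_card' 5 h5
  exact ⟨q, q.2, by rw [Subgroup.orderOf_coe]; exact hq⟩

/-- The subgroups of order five of the centraliser are conjugate. -/
theorem exists_conj_five {q : G} (hq : q ∈ c.H) (h5 : orderOf q = 5) {Q : Subgroup G}
    (hQ : Q ≤ c.H) (hc : Nat.card Q = 5) :
    ∃ h ∈ c.H, ∀ x, x ∈ Q ↔ h * x * h⁻¹ ∈ Subgroup.zpowers q := by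
  haveI : Fact (Nat.Prime 5) := ⟨by norm_num⟩
  have hf : (Nat.card c.H).factorization 5 = 1 := by
    rw [c.card_H, Nat.factorization_mul (by norm_num) (by norm_num), Finsupp.add_apply,
      Nat.Prime.factorization_self (by norm_num),
      Nat.factorization_eq_zero_of_not_dvd (by norm_num : ¬(5 ∣ 3 ^ 3 * 19712 * 2 ^ 13))]
  have hz : Subgroup.zpowers q ≤ c.H := Subgroup.zpowers_le.2 hq
  obtain ⟨h, hh⟩ := MulAction.exists_smul_eq c.H
    (Sylow.ofCard (Q.subgroupOf c.H) (by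
      rw [Nat.card_congr (Subgroup.subgroupOfEquivOfLe hQ).toEquiv, hc, hf, pow_one]) : Sylow 5 c.H)
    (Sylow.ofCard ((Subgroup.zpowers q).subgroupOf c.H) (by
      rw [Nat.card_congr (Subgroup.subgroupOfEquivOfLe hz).toEquiv, Nat.card_zpowers, h5, hf,
        pow_one]))
  have e := congrArg Sylow.toSubgroup hh
  rw [Sylow.coe_subgroup_smul] at e
  change conjS h (Q.subgroupOf c.H) = (Subgroup.zpowers q).subgroupOf c.H at e
  refine ⟨h, h.2, fun x => ⟨fun hx => ?_, fun hx => ?_⟩⟩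
  · exact e.le ⟨⟨x, hQ hx⟩, hx, rfl⟩
  · have hH : h * x * h⁻¹ ∈ c.H := hz hx
    obtain ⟨y, hy, hye⟩ := e.ge (show (⟨(h : G) * x * (h : G)⁻¹, hH⟩ : c.H) ∈
      (Subgroup.zpowers q).subgroupOf c.H from hx)
    have he : (h : G) * y * (h : G)⁻¹ = h * x * (h : G)⁻¹ := congrArg Subtype.val hye
    rw [← mul_left_cancel (mul_right_cancel he)]
    exact hy

section Five

variable {q : G} (hq : q ∈ c.C) (h5 : orderOf q = 5)

include h5 in
theorem orderOf_sig_five : orderOf (c.sig ⟨q, hq⟩) = 5 := by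
  haveI : Fact (Nat.Prime 5) := ⟨by norm_num⟩
  refine orderOf_eq_prime ?_ fun h => ?_
  · rw [← map_pow, show (⟨q, hq⟩ : c.C) ^ 5 = 1 from Subtype.ext (h5 ▸ pow_orderOf_eq_one q), map_one]
  · have hk : (⟨q, hq.1⟩ : c.H) ∈ c.setup.π.ker := by
      show c.pi ⟨q, hq.1⟩ = 1
      rw [← c.conj_sig ⟨q, hq⟩, h, map_one]
    have := Subgroup.orderOf_dvd_natCard _ hk
    rw [c.setup.cardKer, ← Subgroup.orderOf_coe, h5] at this
    norm_num at this

include h5 in
theorem toX_five : c.toX hq ^ 5 = 1 := by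
  rw [toX, ← QuotientGroup.mk_pow, show c.toC hq ^ 5 = 1 from
    Subtype.ext (Subtype.ext (h5 ▸ pow_orderOf_eq_one q)), QuotientGroup.mk_one]

include h5 in
theorem proj_toX_ne : c.setup.rep.proj (c.toX hq) ≠ 1 := by
  rw [c.proj_toX]
  intro h
  have := c.orderOf_sig_five hq h5
  rw [h, orderOf_one] at this
  omega

include h5 in
theorem qE_fixed_iff {e : G} (he : e ∈ c.E) :
    c.qE he ∈ c.setup.rep.fixed {c.toX hq} ↔ Commute e q := by
  rw [c.mem_fixed_iff hq he, c.mem_zpowers_z]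
  constructor
  · rintro (h | h)
    · exact mul_inv_eq_iff_eq_mul.1 (mul_inv_eq_one.1 h)
    · exfalso
      have h5' : q ^ 5 = 1 := h5 ▸ pow_orderOf_eq_one q
      have hzq : e * q * e⁻¹ = c.z * q := mul_inv_eq_iff_eq_mul.1 h
      have := congrArg (· ^ 5) hzq
      simp only [conj_pow, h5', mul_one, mul_inv_cancel, (c.commute_z hq.1).symm.mul_pow] at this
      rw [pow_succ, show c.z ^ 4 = 1 by rw [show 4 = 2 * 2 from rfl, pow_mul, pow_two c.z,
        c.z_mul_self, one_pow], one_mul] at this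
      exact c.z_ne_one this.symm
  · intro h
    left
    rw [h.eq, mul_inv_cancel_right, mul_inv_cancel]

include h5 in
theorem fixFive_eq : c.fixFive q = c.preG (c.setup.rep.fixed {c.toX hq}) := by
  ext e
  rw [c.mem_preG]
  constructor
  · rintro ⟨he, hc⟩
    exact ⟨he, (c.qE_fixed_iff hq h5 he).2 (Subgroup.mem_centralizer_singleton_iff.1 hc)⟩
  · rintro ⟨he, hw⟩
    exact ⟨he, Subgroup.mem_centralizer_singleton_iff.2 ((c.qE_fixed_iff hq h5 he).1 hw)⟩

include hq h5 in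
theorem card_fixFive : Nat.card (c.fixFive q) = 32 := by
  rw [c.fixFive_eq hq h5, c.card_preG, (c.setup.rep.exists_five_pair (c.toX_five hq h5)
    (c.proj_toX_ne hq h5) (c.setup.rep.card_fixed_five (c.toX_five hq h5)
      (c.proj_toX_ne hq h5))).1]

include hq h5 in
theorem center_fixFive {a : G} (ha : a ∈ c.fixFive q) (h : ∀ b ∈ c.fixFive q, Commute a b) :
    a = 1 ∨ a = c.z := by
  refine c.center_E ha.1 fun e he => ?_
  have haq : Commute a q := Subgroup.mem_centralizer_singleton_iff.1 ha.2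
  let χ : G → G := fun y => a * y * a⁻¹ * y⁻¹
  have hχ : ∀ {y w : G}, y ∈ c.E → w ∈ c.E → χ (y * w) = χ y * χ w := by
    intro y w hy hw
    have hc : Commute y (χ w) := by
      rcases c.commE ha.1 hw with h' | h' <;> (show Commute y (a * w * a⁻¹ * w⁻¹)) <;> rw [h']
      exacts [Commute.one_right _, mem_cz.1 (c.E_le hy)]
    show a * (y * w) * a⁻¹ * (y * w)⁻¹ = χ y * χ w
    calc a * (y * w) * a⁻¹ * (y * w)⁻¹ = χ y * (y * χ w) * y⁻¹ := by simp only [χ]; group
      _ = χ y * χ w := by rw [hc.eq]; group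
  have hmem : ∀ n : ℕ, q ^ n * e * (q ^ n)⁻¹ ∈ c.E := fun n => c.normal_E (pow_mem hq.1 n) he
  have hconj : ∀ n : ℕ, χ (q ^ n * e * (q ^ n)⁻¹) = χ e := by
    intro n
    have hn : Commute a (q ^ n) := haq.pow_right n
    have hz : Commute (q ^ n) (χ e) := by
      rcases c.commE ha.1 he with h' | h' <;>
        (show Commute (q ^ n) (a * e * a⁻¹ * e⁻¹)) <;> rw [h']
      exacts [Commute.one_right _, (c.commute_z (pow_mem hq n).1)]
    show a * (q ^ n * e * (q ^ n)⁻¹) * a⁻¹ * (q ^ n * e * (q ^ n)⁻¹)⁻¹ = χ e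
    rw [show a * (q ^ n * e * (q ^ n)⁻¹) * a⁻¹ * (q ^ n * e * (q ^ n)⁻¹)⁻¹ =
      (a * q ^ n) * e * (a * q ^ n)⁻¹ * (q ^ n * e⁻¹ * (q ^ n)⁻¹) by group, hn.eq,
      show q ^ n * a * e * (q ^ n * a)⁻¹ * (q ^ n * e⁻¹ * (q ^ n)⁻¹) =
        q ^ n * χ e * (q ^ n)⁻¹ by simp only [χ]; group, hz.eq, mul_inv_cancel_right]
  set e0 := e
  set e1 := q ^ 1 * e * (q ^ 1)⁻¹
  set e2 := q ^ 2 * e * (q ^ 2)⁻¹
  set e3 := q ^ 3 * e * (q ^ 3)⁻¹
  set e4 := q ^ 4 * e * (q ^ 4)⁻¹
  have m1 : e1 ∈ c.E := hmem 1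
  have m2 : e2 ∈ c.E := hmem 2
  have m3 : e3 ∈ c.E := hmem 3
  have m4 : e4 ∈ c.E := hmem 4
  have m01 := mul_mem he m1
  have m012 := mul_mem m01 m2
  have m0123 := mul_mem m012 m3
  have mf := mul_mem m0123 m4
  have hfix : c.qE mf ∈ c.setup.rep.fixed {c.toX hq} := by
    rw [c.setup.rep.mem_fixed_single, c.act_qE hq mf]
    have hshift : ∀ (n : ℕ), q * (q ^ n * e * (q ^ n)⁻¹) * q⁻¹ =
        q ^ (n + 1) * e * (q ^ (n + 1))⁻¹ := fun n => by rw [pow_succ']; group
    have h5' : q ^ 5 = 1 := h5 ▸ pow_orderOf_eq_one q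
    have e0' : q * e0 * q⁻¹ = e1 := by simp [e0, e1]
    have e4' : q * e4 * q⁻¹ = e0 := by rw [hshift 4, h5']; simp [e0]
    have hval : q * (e0 * e1 * e2 * e3 * e4) * q⁻¹ = e1 * e2 * e3 * e4 * e0 := by
      rw [show q * (e0 * e1 * e2 * e3 * e4) * q⁻¹ = (q * e0 * q⁻¹) * (q * e1 * q⁻¹) *
        (q * e2 * q⁻¹) * (q * e3 * q⁻¹) * (q * e4 * q⁻¹) by group, e0', hshift 1, hshift 2,
        hshift 3, e4']
    have m1234 := mul_mem (mul_mem (mul_mem m1 m2) m3) m4
    have hh : c.qE (c.normal_E hq.1 mf) = c.qE (mul_mem m1234 he) := by congr 1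
    rw [hh, c.qE_mul m1234 he, c.setup.rep.comm]
    rw [← c.qE_mul he m1234]
    congr 1
    simp only [mul_assoc]
  have hcomm : Commute a (e0 * e1 * e2 * e3 * e4) :=
    h _ ⟨mf, Subgroup.mem_centralizer_singleton_iff.2 ((c.qE_fixed_iff hq h5 mf).1 hfix)⟩
  have h1 : χ (e0 * e1 * e2 * e3 * e4) = 1 := by
    show a * _ * a⁻¹ * _ = 1
    rw [hcomm.eq, mul_inv_cancel_right, mul_inv_cancel]
  rw [hχ m0123 m4, hχ m012 m3, hχ m01 m2, hχ he m1, show χ e1 = χ e from hconj 1,
    show χ e2 = χ e from hconj 2, show χ e3 = χ e from hconj 3,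
    show χ e4 = χ e from hconj 4] at h1
  have h2 : χ e = 1 := by
    rcases c.commE ha.1 he with h' | h'
    · exact h'
    · exfalso
      have hz : χ e0 = c.z := h'
      rw [show χ e = c.z from h', c.z_mul_self, one_mul, c.z_mul_self, one_mul] at h1
      exact c.z_ne_one h1
  exact mul_inv_eq_iff_eq_mul.1 (mul_inv_eq_one.1 h2)

include hq h5 in
theorem cent_five_pi {u : G} (hu : u ∈ c.H) (hc : Commute u q) :
    c.pi ⟨u, hu⟩ ∈ Subgroup.centralizer ({MulAut.conj (c.sig ⟨q, hq⟩)} : Set (MulAut M)) := by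
  rw [Subgroup.mem_centralizer_singleton_iff, c.conj_sig, ← map_mul, ← map_mul]
  exact congrArg _ (Subtype.ext hc.eq)

include hq h5 in
theorem invol_inn {u : G} (hu : u ∈ c.inn) (huH : u ∈ c.H) (hc : Commute u q) (h2 : u * u = 1) :
    u ∈ c.E := by
  obtain ⟨m, hm⟩ := (c.mem_inn huH).1 hu
  have hmc := c.cent_five_pi hq h5 huH hc
  rw [← hm, Subgroup.mem_centralizer_singleton_iff, ← map_mul, ← map_mul] at hmc
  have hs := c.orderOf_sig_five hq h5
  have hms := (J4Facts21.local_five hs).cent m (conj_injective_M hmc)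
  have hm2 : m * m = 1 := conj_injective_M (by
    rw [map_mul, map_one, hm, ← map_mul]
    exact (congrArg c.pi (Subtype.ext h2 : (⟨u, huH⟩ : c.H) * ⟨u, huH⟩ = 1)).trans (map_one _))
  have hm1 : m = 1 := by
    have hd : orderOf m ∣ 5 := by
      have h := Subgroup.orderOf_dvd_natCard _ hms
      rwa [Nat.card_zpowers, hs] at h
    have h := Nat.dvd_gcd (orderOf_dvd_of_pow_eq_one (by rw [pow_two, hm2]) : orderOf m ∣ 2) hd
    exact orderOf_eq_one_iff.1 (Nat.dvd_one.1 h)
  exact c.mem_E_of_two huH (by rw [← hm, hm1, map_one]) (n := 1) (by simpa [pow_two] using h2)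

theorem inn_mul {a b : G} (ha : a ∈ c.H) (hb : b ∈ c.H) (ha' : a ∉ c.inn) (hb' : b ∉ c.inn) :
    a * b ∈ c.inn := by
  rw [c.mem_inn (mul_mem ha hb)]
  rw [c.mem_inn ha] at ha'
  rw [c.mem_inn hb] at hb'
  have := (Subgroup.mul_mem_iff_of_index_two inn_index (a := c.pi ⟨a, ha⟩) (b := c.pi ⟨b, hb⟩)).2
    (iff_of_false ha' hb')
  rwa [← map_mul] at this

include hq h5 in
/-- The centraliser of the element of order five in the involution centraliser. -/
theorem card_cent_five : Nat.card ↥(c.H ⊓ Subgroup.centralizer ({q} : Set G)) = 960 := by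
  haveI : Fact (Nat.Prime 5) := ⟨by norm_num⟩
  set L := c.H ⊓ Subgroup.centralizer ({q} : Set G)
  set s := c.sig ⟨q, hq⟩
  set qH : c.H := ⟨q, hq.1⟩
  have hs := c.orderOf_sig_five hq h5
  have hπq : c.pi qH = MulAut.conj s := (c.conj_sig ⟨q, hq⟩).symm
  let f : L →* MulAut M := c.pi.comp (Subgroup.inclusion (inf_le_left : L ≤ c.H))
  have hrange : f.range = Subgroup.centralizer ({MulAut.conj s} : Set (MulAut M)) := by
    refine le_antisymm ?_ fun φ hφ => ?_
    · rintro _ ⟨u, rfl⟩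
      exact c.cent_five_pi hq h5 u.2.1 (Subgroup.mem_centralizer_singleton_iff.1 u.2.2)
    · obtain ⟨h, rfl⟩ := c.setup.surj φ
      change c.H at h
      have hφ' : Commute (c.pi h) (MulAut.conj s) := Subgroup.mem_centralizer_singleton_iff.1 hφ
      set P : Subgroup c.H := (Subgroup.zpowers (MulAut.conj s)).comap c.pi with hP
      have hqP : qH ∈ P := by
        rw [hP, Subgroup.mem_comap]
        rw [hπq]; exact Subgroup.mem_zpowers _
      have hcardP : Nat.card P = 5 * (3 * 2 ^ 13) := by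
        have e := Subgroup.card_mul_index P
        rw [hP, Subgroup.index_comap_of_surjective (f := c.pi) _ c.setup.surj] at e
        have e2 := Subgroup.card_mul_index (Subgroup.zpowers (MulAut.conj s))
        rw [Nat.card_zpowers, orderOf_injective _ conj_injective_M, hs, Setup.card_mulAut] at e2
        rw [sylowThree_card_H (H := c.H) c.setup] at e
        have hi : (Subgroup.zpowers (MulAut.conj s)).index = 177408 := by omega
        rw [← hP] at e
        rw [hi] at e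
        omega
      have hq5 : orderOf (⟨qH, hqP⟩ : P) = 5 := by
        rw [← Subgroup.orderOf_coe, ← Subgroup.orderOf_coe]; exact h5
      have hf : (Nat.card P).factorization 5 = 1 := by
        rw [hcardP, Nat.factorization_mul (by norm_num) (by norm_num), Finsupp.add_apply,
          Nat.Prime.factorization_self (by norm_num),
          Nat.factorization_eq_zero_of_not_dvd (by norm_num : ¬(5 ∣ 3 * 2 ^ 13))]
      have hhP : h * qH * h⁻¹ ∈ P := by
        rw [hP, Subgroup.mem_comap]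
        rw [map_mul, map_mul, map_inv, hπq, hφ'.eq, mul_inv_cancel_right]
        exact Subgroup.mem_zpowers _
      have hh5 : orderOf (⟨h * qH * h⁻¹, hhP⟩ : P) = 5 := by
        rw [← Subgroup.orderOf_coe]
        show orderOf (MulAut.conj h qH) = 5
        rw [MulEquiv.orderOf_eq, ← Subgroup.orderOf_coe]; exact h5
      obtain ⟨k, hk⟩ := MulAction.exists_smul_eq P
        (Sylow.ofCard (Subgroup.zpowers (⟨h * qH * h⁻¹, hhP⟩ : P)) (by
          rw [Nat.card_zpowers, hh5, hf, pow_one]) : Sylow 5 P)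
        (Sylow.ofCard (Subgroup.zpowers (⟨qH, hqP⟩ : P)) (by
          rw [Nat.card_zpowers, hq5, hf, pow_one]))
      have e := congrArg Sylow.toSubgroup hk
      rw [Sylow.coe_subgroup_smul] at e
      obtain ⟨j, hj⟩ := e.le ⟨_, Subgroup.mem_zpowers _, rfl⟩
      have hjH : qH ^ j = (k : c.H) * (h * qH * h⁻¹) * (k : c.H)⁻¹ := by
        have := congrArg (fun y : P => (y : c.H)) hj
        exact this
      obtain ⟨i, hi⟩ : c.pi (k : c.H) ∈ Subgroup.zpowers (MulAut.conj s) := k.2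
      set n : c.H := qH ^ (-i) * (k : c.H) * h with hn
      have hπn : c.pi n = c.pi h := by
        rw [hn, map_mul, map_mul, map_zpow, hπq, ← hi, zpow_neg]; group
      have hconj : n * qH * n⁻¹ = qH ^ j := by
        rw [hn, show qH ^ (-i) * (k : c.H) * h * qH * (qH ^ (-i) * (k : c.H) * h)⁻¹ =
          qH ^ (-i) * ((k : c.H) * (h * qH * h⁻¹) * (k : c.H)⁻¹) * qH ^ i by group, ← hjH]
        group
      have h1 : qH ^ (j - 1) = 1 := by
        have e1 := congrArg c.pi hconj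
        rw [map_mul, map_mul, map_inv, map_zpow, hπn, hπq, hφ'.eq, mul_inv_cancel_right] at e1
        have e2 : (MulAut.conj s) ^ (j - 1) = 1 := by
          rw [zpow_sub_one, ← e1, mul_inv_cancel]
        have hd := orderOf_dvd_iff_zpow_eq_one.2 e2
        rw [orderOf_injective _ conj_injective_M, hs] at hd
        refine orderOf_dvd_iff_zpow_eq_one.1 ?_
        rwa [← Subgroup.orderOf_coe, h5]
      have hnc : Commute n qH := by
        refine mul_inv_eq_iff_eq_mul.1 ?_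
        rw [hconj]
        rwa [zpow_sub_one, mul_inv_eq_one] at h1
      exact ⟨⟨n, n.2, Subgroup.mem_centralizer_singleton_iff.2 (congrArg Subtype.val hnc.eq)⟩, hπn⟩
  have hker : Nat.card f.ker = 96 := by
    have hpq : Commute c.p q := (c.mem_C.1 hq).2.symm
    have hmemL : ∀ (e : c.fixFive q) (t : Subgroup.zpowers c.p), (e : G) * t ∈ L := by
      rintro ⟨e, he⟩ ⟨t, ht⟩
      exact ⟨mul_mem (c.E_le he.1) (Subgroup.zpowers_le.2 c.p_mem_H ht), mul_mem he.2
        (Subgroup.zpowers_le.2 (Subgroup.mem_centralizer_singleton_iff.2 hpq) ht)⟩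
    have hmemK : ∀ (e : c.fixFive q) (t : Subgroup.zpowers c.p),
        (⟨(e : G) * t, hmemL e t⟩ : L) ∈ f.ker := by
      rintro ⟨e, he⟩ ⟨_, i, rfl⟩
      show c.pi ⟨e * c.p ^ i, _⟩ = 1
      rw [show (⟨e * c.p ^ i, (hmemL ⟨e, he⟩ ⟨_, i, rfl⟩).1⟩ : c.H) =
        ⟨e, c.E_le he.1⟩ * (⟨c.p, c.p_mem_H⟩ : c.H) ^ i from rfl, map_mul, map_zpow,
        c.pi_of_mem_E he.1, show c.pi ⟨c.p, c.p_mem_H⟩ = 1 from
          MonoidHom.mem_ker.1 c.setup.pker, one_zpow, one_mul]
    let g : c.fixFive q × Subgroup.zpowers c.p → f.ker := fun x => ⟨_, hmemK x.1 x.2⟩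
    have hg : Function.Bijective g := by
      constructor
      · rintro ⟨⟨e, he⟩, ⟨t, ht⟩⟩ ⟨⟨e', he'⟩, ⟨t', ht'⟩⟩ h
        have h' : e * t = e' * t' := congrArg (fun x : f.ker => ((x : L) : G)) h
        have hE : e'⁻¹ * e = t' * t⁻¹ := by
          calc e'⁻¹ * e = e'⁻¹ * (e * t) * t⁻¹ := by group
            _ = _ := by rw [h']; group
        have hm : t' * t⁻¹ = 1 := by
          have h1 : t' * t⁻¹ ∈ c.E := hE ▸ mul_mem (inv_mem he'.1) he.1
          obtain ⟨k, hk⟩ := c.isPGroup_E ⟨_, h1⟩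
          obtain ⟨i, hi⟩ := mul_mem ht' (inv_mem ht)
          have h3 : (t' * t⁻¹) ^ 3 = 1 := by
            rw [← hi, ← zpow_natCast, ← zpow_mul, mul_comm, zpow_mul, zpow_natCast, c.p_cube,
              one_zpow]
          have := pow_gcd_eq_one.2 ⟨congrArg Subtype.val hk, h3⟩
          rwa [((Nat.Coprime.pow_left k (by norm_num : Nat.Coprime 2 3))).gcd_eq_one,
            pow_one] at this
        rw [hm] at hE
        exact Prod.ext (Subtype.ext (inv_mul_eq_one.1 hE).symm)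
          (Subtype.ext (mul_inv_eq_one.1 hm).symm)
      · rintro ⟨⟨n, hn⟩, hk⟩
        obtain ⟨i, hi⟩ := c.ker_pi_E (x := ⟨n, hn.1⟩) hk
        have hmem : n * c.p ^ i ∈ c.fixFive q :=
          ⟨hi, mul_mem hn.2 (zpow_mem (Subgroup.mem_centralizer_singleton_iff.2 hpq) i)⟩
        refine ⟨(⟨_, hmem⟩, ⟨(c.p ^ i)⁻¹, inv_mem (zpow_mem (Subgroup.mem_zpowers _) i)⟩), ?_⟩
        exact Subtype.ext (Subtype.ext (mul_inv_cancel_right _ _))
    rw [← Nat.card_congr (Equiv.ofBijective g hg), Nat.card_prod, c.card_fixFive hq h5,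
      Nat.card_zpowers, c.orderOf_p]
  have h := Subgroup.card_mul_index f.ker
  rw [Subgroup.index_ker, hker, hrange, J4Facts21.five_autCent hs] at h
  omega

include hq h5 in
theorem exists_layer {a : M}
    (ha : conjS (c.sig ⟨q, hq⟩) (conjS a hex) = conjS a hex)
    (h4 : Nat.card ↥(c.setup.rep.F (conjS a hex) ⊓ c.setup.rep.fixed {c.toX hq}) = 4) :
    c.FiveLayer q (c.preG (c.setup.rep.F (conjS a hex) ⊓ c.setup.rep.fixed {c.toX hq})) := by
  set S := c.setup.rep.F (conjS a hex) ⊓ c.setup.rep.fixed {c.toX hq}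
  obtain ⟨hsq, hcard, hVE⟩ := c.setup.hexV_spec a
  set V := (c.setup.hexV a).map c.H.subtype
  have hVs : ∀ x ∈ V, x * x = 1 := by
    rintro _ ⟨y, hy, rfl⟩
    exact congrArg Subtype.val (hsq y hy)
  have hV : Nat.card V = 2 ^ 11 := by
    rw [Subgroup.card_map_of_injective (Subgroup.subtype_injective _), hcard]
  have hleV : c.preG S ≤ V := by
    rintro e ⟨he, hw⟩
    exact ⟨⟨e, c.E_le he⟩, (hVE.ge (c.setup.mem_pre.2 ⟨c.mem_setup_E he, hw.1⟩)).1, rfl⟩
  have hzmem : c.z ∈ c.preG S := ⟨c.z_mem_E, by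
    rw [(c.qE_eq_one _).2 (Or.inr rfl)]; exact one_mem S⟩
  refine ⟨fun e he => ?_, fun e he => hVs e (hleV he), hzmem, by rw [c.card_preG, h4], ?_, ?_,
    V, hVs, hV, hleV hzmem, ?_, ?_⟩
  · rw [c.fixFive_eq hq h5]
    exact ⟨he.choose, he.choose_spec.2⟩
  · rintro e ⟨he, hw⟩
    refine ⟨c.normal_E c.p_mem_H he, ?_⟩
    rw [← c.act_qE c.p_mem_C he]
    exact c.setup.rep.pinv_inf (c.setup.rep.pinv_fixed (c.setup.rep.liftSet (conjS a hex)))
      (c.setup.rep.pinv_fixed {c.toX hq}) _ hw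
  · rintro e ⟨he, hw⟩ h1 hz b ⟨hb, hbw⟩ hb1
    by_cases hbz : b = c.z
    · exact Or.inl hbz
    right
    set w := c.qE he
    set pp := c.setup.rep.act c.setup.rep.p
    have hw1 : w ≠ 1 := fun h => ((c.qE_eq_one he).1 h).elim h1 hz
    have hpS : ∀ v ∈ S, pp v ∈ S :=
      c.setup.rep.pinv_inf (c.setup.rep.pinv_fixed _) (c.setup.rep.pinv_fixed _)
    have n1 : pp w ≠ w := fun h => hw1 (c.setup.rep.fpf w h)
    have n2 : pp (pp w) ≠ pp w := fun h => n1 (pp.injective h)
    have h3 : pp (pp (pp w)) = w := by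
      simp only [pp]
      rw [← c.setup.rep.act_mul, ← c.setup.rep.act_mul, ← pow_three', c.setup.rep.cube,
        c.setup.rep.act_one]
    have n3 : pp (pp w) ≠ w := fun h => n1 (by
      have e := congrArg pp h
      rw [h3] at e
      exact e.symm)
    have hfull : ({1, w, pp w, pp (pp w)} : Set c.setup.W) = (S : Set c.setup.W) := by
      refine Set.eq_of_subset_of_ncard_le ?_ ?_ (Set.toFinite _)
      · rintro v (rfl | rfl | rfl | rfl)
        exacts [one_mem S, hw, hpS _ hw, hpS _ (hpS _ hw)]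
      · have : (S : Set c.setup.W).ncard = 4 := by
          rw [← Nat.card_coe_set_eq]; exact h4
        rw [this, Set.ncard_insert_of_notMem (by
            simp only [Set.mem_insert_iff, Set.mem_singleton_iff, not_or]
            exact ⟨Ne.symm hw1, fun h => hw1 (pp.injective (by rw [map_one]; exact h.symm)),
              fun h => hw1 (pp.injective (pp.injective (by rw [map_one, map_one]; exact h.symm)))⟩)
            (Set.toFinite _), Set.ncard_insert_of_notMem (by
            simp only [Set.mem_insert_iff, Set.mem_singleton_iff, not_or]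
            exact ⟨Ne.symm n1, Ne.symm n3⟩) (Set.toFinite _), Set.ncard_pair (Ne.symm n2)]
    have fin : ∀ {k : G} (hk : k ∈ c.C), c.qE hb = c.setup.rep.act (c.toX hk) w →
        ∃ k ∈ c.H, k * e * k⁻¹ = b ∨ k * (e * c.z) * k⁻¹ = b := by
      intro k hk hbe
      rw [c.act_qE hk he] at hbe
      refine ⟨k, hk.1, ?_⟩
      rcases c.qE_eq (c.normal_E hk.1 he) hb hbe.symm with h | h
      · exact Or.inl h.symm
      · refine Or.inr ?_
        rw [h, show k * (e * c.z) * k⁻¹ = k * e * (c.z * k⁻¹) by group,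
          ((c.commute_z hk.1).inv_left).symm.eq]
        group
    have hbS := hfull.ge hbw
    rcases hbS with h | h | h | h
    · exact absurd ((c.qE_eq_one hb).1 h) (by rintro (h' | h'); exacts [hb1 h', hbz h'])
    · refine fin (one_mem _) (h.trans ?_)
      rw [show c.toX (one_mem c.C) = 1 from rfl, c.setup.rep.act_one]
    · exact fin c.p_mem_C h
    · refine fin (mul_mem c.p_mem_C c.p_mem_C) (h.trans ?_)
      rw [c.toX_mul c.p_mem_C c.p_mem_C, c.setup.rep.act_mul]
      rfl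
  · ext x
    constructor
    · intro hx
      exact ⟨hleV hx, ((c.fixFive_eq hq h5).ge ⟨hx.choose, hx.choose_spec.2⟩).2⟩
    · rintro ⟨⟨y, hy, rfl⟩, hxq⟩
      have hxq' : Commute (y : G) q := Subgroup.mem_centralizer_singleton_iff.1 hxq
      have hyE : (y : G) ∈ c.E := by
        have hyi : (y : G) ∈ c.inn := by
          rw [c.mem_inn y.2]
          obtain ⟨m, -, hm⟩ := hy.1
          exact ⟨m, hm⟩
        exact c.invol_inn hq h5 hyi y.2 hxq' (congrArg Subtype.val (hsq y hy))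
      obtain ⟨_, hw⟩ := c.setup.mem_pre.1 (hVE.le ⟨hy, c.mem_setup_E hyE⟩)
      exact ⟨hyE, hw, (c.qE_fixed_iff hq h5 hyE).2 hxq'⟩
  · have hn := c.setup.hexV_normalized (b := a) (c := ⟨q, hq.1⟩) (c.mem_setup_C hq) ha
    rw [Subgroup.mem_normalizer_iff]
    intro x
    constructor
    · rintro ⟨y, hy, rfl⟩
      exact ⟨⟨q, hq.1⟩ * y * ⟨q, hq.1⟩⁻¹, hn.le ⟨y, hy, rfl⟩, rfl⟩
    · rintro ⟨y, hy, hye⟩
      obtain ⟨y', hy', hye'⟩ := hn.ge hy
      have : q * (y' : G) * q⁻¹ = q * x * q⁻¹ := (congrArg Subtype.val hye').trans hye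
      exact ⟨y', hy', mul_left_cancel (mul_right_cancel this)⟩

include hq h5 in
/-- Two such subgroups meeting in the marked involution. -/
theorem exists_layer_pair : ∃ A₁ A₂ : Subgroup G, c.FiveLayer q A₁ ∧ c.FiveLayer q A₂ ∧
    ∀ e ∈ A₁, e ∈ A₂ → e = 1 ∨ e = c.z := by
  obtain ⟨-, a, b, ha, hb, ha4, hb4, hbot⟩ := c.setup.rep.exists_five_pair (c.toX_five hq h5)
    (c.proj_toX_ne hq h5) (c.setup.rep.card_fixed_five (c.toX_five hq h5) (c.proj_toX_ne hq h5))
  refine ⟨_, _, c.exists_layer hq h5 ha ha4, c.exists_layer hq h5 hb hb4, ?_⟩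
  rintro e ⟨he, hw⟩ ⟨_, hw'⟩
  have := hbot.le ⟨hw.1, hw'.1⟩
  exact (c.qE_eq_one he).1 (Subgroup.mem_bot.1 this)

end Five

/-- In such a subgroup at most one of each pair modulo the involution is fused to it, when the
fused elements of the big subgroup number one modulo five. -/
theorem FiveLayer.lift {q : G} {A : Subgroup G} (hA : c.FiveLayer q A) (h5 : orderOf q = 5)
    (hmod : ∀ V : Subgroup G, (∀ x ∈ V, x * x = 1) → Nat.card V = 2 ^ 11 → c.z ∈ V →
      Nat.card {x : G // x ∈ V ∧ IsConj c.z x} % 5 = 1)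
    {a : G} (ha : a ∈ A) (h1 : a ≠ 1) (hz : a ≠ c.z) :
    ¬ IsConj c.z a ∨ ¬ IsConj c.z (a * c.z) := by
  classical
  by_contra hcon
  rw [not_or, not_not, not_not] at hcon
  obtain ⟨hca, hcaz⟩ := hcon
  obtain ⟨V, hVs, hV, hzV, hAV, hqV⟩ := hA.big
  have hqn := Subgroup.mem_normalizer_iff.1 hqV
  have hqH : Commute q c.z :=
    (Subgroup.mem_centralizer_singleton_iff.1 (hA.le hA.zmem).2).symm
  let f : {x : G // x ∈ V ∧ IsConj c.z x} → {x : G // x ∈ V ∧ IsConj c.z x} := fun x =>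
    ⟨q * x.1 * q⁻¹, (hqn x.1).1 x.2.1, x.2.2.trans (isConj_iff.2 ⟨q, rfl⟩)⟩
  have hit : ∀ (k : ℕ) (x : {x : G // x ∈ V ∧ IsConj c.z x}),
      (f^[k] x : G) = q ^ k * x.1 * (q ^ k)⁻¹ := by
    intro k x
    induction k with
    | zero => simp
    | succ k ih =>
      rw [Function.iterate_succ_apply']
      show q * (f^[k] x : G) * q⁻¹ = _
      rw [ih, pow_succ']; group
  have h := card_modEq f (q := 5) (n := 1) (by norm_num) fun x => Subtype.ext (by
    rw [hit, pow_one, ← h5, pow_orderOf_eq_one]; simp)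
  have hfix : Nat.card {x // f x = x} = Nat.card {x : G // x ∈ A ∧ x ≠ 1} := by
    refine Nat.card_congr
      { toFun := fun x => ⟨x.1.1, hAV.ge ⟨x.1.2.1, Subgroup.mem_centralizer_singleton_iff.2
          (mul_inv_eq_iff_eq_mul.1 (congrArg Subtype.val x.2)).symm⟩, fun h => c.z_ne_one
          (isConj_one_left.1 (h ▸ x.1.2.2))⟩
        invFun := fun x => ⟨⟨x.1, (hAV.le x.2.1).1, ?_⟩, Subtype.ext
          (mul_inv_eq_iff_eq_mul.2
            (Subgroup.mem_centralizer_singleton_iff.1 (hAV.le x.2.1).2).symm)⟩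
        left_inv := fun _ => rfl
        right_inv := fun _ => rfl }
    rcases hA.rot a ha h1 hz x.1 x.2.1 x.2.2 with e | ⟨k, -, e | e⟩
    · rw [e]
    · exact hca.trans (isConj_iff.2 ⟨k, e⟩)
    · exact hcaz.trans (isConj_iff.2 ⟨k, e⟩)
  have h7 : Nat.card {x : G // x ∈ A ∧ x ≠ 1} = 7 := by
    have e : Nat.card {x : G // x ∈ A ∧ x ≠ 1} = ((A : Set G) \ {1}).ncard :=
      Nat.card_coe_set_eq ((A : Set G) \ {1})
    have e2 : (A : Set G).ncard = 8 := (Nat.card_coe_set_eq (A : Set G)).symm.trans hA.card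
    rw [e, Set.ncard_diff_singleton_of_mem (one_mem A), e2]
  rw [hfix, h7] at h
  have := hmod V hVs hV hzV
  unfold Nat.ModEq at h
  omega

/-- The symmetry of lying in each other's 2-core. -/
theorem symm_E {g : G} (h : g * c.z * g⁻¹ ∈ c.E) : g⁻¹ * c.z * g ∈ c.E := by
  obtain ⟨b, hb, hbE⟩ := exists_partner_mem c.setup rfl g (c.E_le h) h
  rw [← hb]
  exact hbE

end CfsgLib.Jf18.Ctx
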