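import Cfsg.Agent.J4Five67.Core
import Cfsg.Agent.J4Five67.HLocal
import Cfsg.Agent.J4Five49.Basic

/-!
The centraliser of an element of order five modulo the element, as an instance of the abstract
configuration.
-/

set_option autoImplicit false

namespace CfsgLib.Jf18.Ctx

open CfsgLib.J4Type67
open scoped Pointwise

universe u

variable {G : Type u} [Group G]

/-- The centraliser of an element. -/
abbrev centFive (q : G) : Subgroup G := Subgroup.centralizer ({q} : Set G)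

/-- The cyclic subgroup inside its centraliser. -/
abbrev genFive (q : G) : Subgroup (centFive q) := (Subgroup.zpowers q).subgroupOf (centFive q)

instance genFive_normal (q : G) : (genFive q).Normal := by
  refine ⟨fun x hx g => ?_⟩
  obtain ⟨i, hi⟩ := hx
  refine ⟨i, ?_⟩
  have hi' : q ^ i = (x : G) := hi
  have hgq : Commute (g : G) q := Subgroup.mem_centralizer_singleton_iff.1 g.2
  show q ^ i = (g : G) * x * (g : G)⁻¹
  rw [← hi', (hgq.zpow_right i).eq, mul_inv_cancel_right]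

/-- The centraliser modulo the element. -/
abbrev QuotFive (q : G) := ↥(centFive q) ⧸ genFive q

/-- The projection. -/
abbrev mkFive (q : G) : ↥(centFive q) →* QuotFive q := QuotientGroup.mk' (genFive q)

theorem mem_centFive {q x : G} : x ∈ centFive q ↔ Commute x q :=
  Subgroup.mem_centralizer_singleton_iff

theorem eq_one_of_zpowers_five {q x : G} (h5 : orderOf q = 5) (hx : x ∈ Subgroup.zpowers q) {n : ℕ}
    (hn : Nat.Coprime n 5) (h : x ^ n = 1) : x = 1 := by
  obtain ⟨i, rfl⟩ := hx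
  have h5' : (q ^ i) ^ 5 = 1 := by
    rw [← zpow_natCast, ← zpow_mul, mul_comm, zpow_mul, zpow_natCast, ← h5, pow_orderOf_eq_one,
      one_zpow]
  have := pow_gcd_eq_one.2 ⟨h, h5'⟩
  rwa [hn.gcd_eq_one, pow_one] at this

/-- Involutions are determined by their images. -/
theorem eq_of_mkFive {q : G} (h5 : orderOf q = 5) {x y : centFive q} (hx : x * x = 1) (hy : y * y = 1)
    (h : mkFive q x = mkFive q y) : x = y := by
  have hmem : ((x⁻¹ * y : centFive q) : G) ∈ Subgroup.zpowers q :=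
    (QuotientGroup.eq (s := genFive q)).1 h
  have hc : ∀ w : centFive q, Commute w (x⁻¹ * y) := fun w => by
    obtain ⟨i, hi⟩ := hmem
    refine Subtype.ext ?_
    show (w : G) * ((x⁻¹ * y : centFive q) : G) = ((x⁻¹ * y : centFive q) : G) * w
    rw [← show q ^ i = ((x⁻¹ * y : centFive q) : G) from hi]
    exact ((mem_centFive.1 w.2).zpow_right i).eq
  have h2 : (x⁻¹ * y) * (x⁻¹ * y) = 1 := by
    have e : y = x * (x⁻¹ * y) := (mul_inv_cancel_left x y).symm
    have := hy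
    rw [e, (hc x).symm.mul_mul_mul_comm, hx, one_mul] at this
    exact this
  have h1 : ((x⁻¹ * y : centFive q) : G) = 1 :=
    eq_one_of_zpowers_five h5 hmem (n := 2) (by norm_num) (by
      rw [pow_two]; exact congrArg Subtype.val h2)
  exact (inv_mul_eq_one.1 (Subtype.ext h1 : x⁻¹ * y = 1))

/-- An involution of the quotient lifts to one of the centraliser. -/
theorem exists_lift_invol {q : G} (h5 : orderOf q = 5) {x : centFive q}
    (h : mkFive q x * mkFive q x = 1) :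
    ∃ y : centFive q, y * y = 1 ∧ mkFive q y = mkFive q x ∧ ∃ n : ℕ, y = x ^ n := by
  refine ⟨x ^ 5, ?_, ?_, 5, rfl⟩
  · rw [← map_mul, QuotientGroup.mk'_apply, QuotientGroup.eq_one_iff] at h
    obtain ⟨i, hi⟩ := h
    have hi' : q ^ i = (x : G) * x := hi
    refine Subtype.ext ?_
    rw [← pow_add, SubmonoidClass.coe_pow, show 5 + 5 = 2 * 5 from rfl, pow_mul, pow_two, ← hi',
      ← zpow_natCast, ← zpow_mul, mul_comm, zpow_mul, zpow_natCast, ← h5, pow_orderOf_eq_one,
      one_zpow, OneMemClass.coe_one]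
  · rw [map_pow, show 5 = 2 + 2 + 1 from rfl, pow_succ, pow_add, pow_two, h, one_mul, one_mul]

/-- An element commuting with an involution modulo the element commutes with it. -/
theorem commute_of_mkFive {q : G} (h5 : orderOf q = 5) {g t : centFive q} (ht : t * t = 1)
    (h : Commute (mkFive q g) (mkFive q t)) : Commute g t := by
  refine mul_inv_eq_iff_eq_mul.1 (eq_of_mkFive h5 ?_ ht ?_)
  · rw [show g * t * g⁻¹ * (g * t * g⁻¹) = g * (t * t) * g⁻¹ by group, ht]
    group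
  · rw [map_mul, map_mul, map_inv, h.eq, mul_inv_cancel_right]

variable [Finite G] (c : Ctx G)

/-- The number of fused elements of an elementary subgroup of order `2 ^ 11`. -/
theorem card_orbit_of_hyp (hO : J4Five49.OrbitHyp c.z) (V : Subgroup G) (hVs : ∀ x ∈ V, x * x = 1)
    (hV : Nat.card V = 2 ^ 11) : Nat.card {x : G // x ∈ V ∧ IsConj c.z x} = 1771 := by
  have hEl : Cfsg.IsElementaryAbelian 2 V :=
    ⟨⟨⟨fun a b => Subtype.ext (comm_of_sq hVs a.2 b.2)⟩⟩, fun a ha => by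
      rw [pow_two]; exact hVs a ha⟩
  obtain ⟨z₀, t₀, hz₀, ht₀, ht1, hc, hn, h1, h2, -⟩ := hO V hEl hV
  set o1 := {v : G | ∃ n ∈ Subgroup.normalizer (V : Set G), n * z₀ * n⁻¹ = v} with ho1
  set o2 := {v : G | ∃ n ∈ Subgroup.normalizer (V : Set G), n * t₀ * n⁻¹ = v} with ho2
  set S : Set G := {v | v ∈ V ∧ IsConj c.z v} with hS
  have horb : ∀ a ∈ V, ∀ n ∈ Subgroup.normalizer (V : Set G), n * a * n⁻¹ ∈ V := fun a ha n hn =>
    (Subgroup.mem_normalizer_iff.1 hn a).1 ha
  have ho1S : o1 ⊆ S := by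
    rintro _ ⟨n, hn', rfl⟩
    exact ⟨horb _ hz₀ n hn', hc.trans (isConj_iff.2 ⟨n, rfl⟩)⟩
  have ho2V : o2 ⊆ {v | v ∈ V ∧ ¬ IsConj c.z v ∧ v ≠ 1} := by
    rintro _ ⟨n, hn', rfl⟩
    exact ⟨horb _ ht₀ n hn', fun h => hn (h.trans (IsConj.symm (isConj_iff.2 ⟨n, rfl⟩))),
      fun h => ht1 (conj_eq_one_iff.1 h)⟩
  have hsub : S ∪ o2 ∪ {1} ⊆ (V : Set G) := by
    rintro x ((hx | hx) | hx)
    · exact hx.1
    · exact (ho2V hx).1
    · rw [Set.mem_singleton_iff.1 hx]; exact V.one_mem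
  have hd1 : Disjoint S o2 := Set.disjoint_left.2 fun x hx hx' => (ho2V hx').2.1 hx.2
  have hd2 : Disjoint (S ∪ o2) {1} := by
    rw [Set.disjoint_singleton_right]
    rintro (hx | hx)
    · exact c.z_ne_one (isConj_one_left.1 hx.2)
    · exact (ho2V hx).2.2 rfl
  have h3 := Set.ncard_le_ncard hsub
  rw [Set.ncard_union_eq hd2, Set.ncard_union_eq hd1, h2, Set.ncard_singleton,
    ← Nat.card_coe_set_eq (V : Set G), SetLike.coe_sort_coe, hV] at h3
  have h4 := Set.ncard_le_ncard ho1S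
  have e : Nat.card {x : G // x ∈ V ∧ IsConj c.z x} = S.ncard := Nat.card_coe_set_eq S
  omega

theorem mod_of_hyp (hO : J4Five49.OrbitHyp c.z) (V : Subgroup G) (hVs : ∀ x ∈ V, x * x = 1)
    (hV : Nat.card V = 2 ^ 11) (_hz : c.z ∈ V) :
    Nat.card {x : G // x ∈ V ∧ IsConj c.z x} % 5 = 1 := by
  rw [c.card_orbit_of_hyp hO V hVs hV]

section Five

variable {q : G} (hq : q ∈ c.C) (h5 : orderOf q = 5)

include hq h5

/-- A subgroup of order five centralised by a conjugate of `z` is carried to `⟨q⟩`. -/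
theorem exists_conj_pair {g q' : G} (h5' : orderOf q' = 5) (hc : Commute q' (g * c.z * g⁻¹)) :
    ∃ k : G, k * (g * c.z * g⁻¹) * k⁻¹ = c.z ∧
      ∀ x, x ∈ Subgroup.zpowers q' ↔ k * x * k⁻¹ ∈ Subgroup.zpowers q := by
  have hmem : g⁻¹ * q' * g ∈ c.H := by
    refine mem_cz.2 ?_
    have h := hc.conj g⁻¹
    simp only [inv_inv] at h
    rwa [show g⁻¹ * (g * c.z * g⁻¹) * g = c.z by group] at h
  have ho : Nat.card (Subgroup.zpowers (g⁻¹ * q' * g)) = 5 := by
    rw [Nat.card_zpowers, ← h5', show g⁻¹ * q' * g = MulAut.conj g⁻¹ q' by simp, MulEquiv.orderOf_eq]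
  obtain ⟨h, hh, hiff⟩ := c.exists_conj_five hq.1 h5 (Subgroup.zpowers_le.2 hmem) ho
  refine ⟨h * g⁻¹, ?_, fun x => ?_⟩
  · rw [show h * g⁻¹ * (g * c.z * g⁻¹) * (h * g⁻¹)⁻¹ = h * c.z * h⁻¹ by group, (mem_cz.1 hh).eq,
      mul_inv_cancel_right]
  · rw [show h * g⁻¹ * x * (h * g⁻¹)⁻¹ = h * (g⁻¹ * x * g) * h⁻¹ by group, ← hiff]
    constructor
    · rintro ⟨i, rfl⟩
      refine ⟨i, ?_⟩
      show (g⁻¹ * q' * g) ^ i = g⁻¹ * q' ^ i * g
      have := @conj_zpow _ _ i g⁻¹ q'
      rwa [inv_inv] at this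
    · rintro ⟨i, hi⟩
      refine ⟨i, ?_⟩
      have hi' : (g⁻¹ * q' * g) ^ i = g⁻¹ * x * g := hi
      have := @conj_zpow _ _ i g⁻¹ q'
      rw [inv_inv] at this
      rw [this] at hi'
      exact mul_left_cancel (mul_right_cancel hi')

/-- The order of the centraliser of an element of order five and a commuting conjugate of `z`. -/
theorem card_cent_five_conj (z' q' : G) (hz : IsConj c.z z') (h5' : orderOf q' = 5)
    (hc : Commute q' z') :
    Nat.card ↥(Subgroup.centralizer ({q'} : Set G) ⊓ Subgroup.centralizer ({z'} : Set G)) = 960 := by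
  obtain ⟨g, rfl⟩ := isConj_iff.1 hz
  obtain ⟨k, hk, hiff⟩ := c.exists_conj_pair hq h5 h5' hc
  obtain ⟨i, hi⟩ := (hiff q').1 (Subgroup.mem_zpowers _)
  obtain ⟨j, hj⟩ : k⁻¹ * q * k ∈ Subgroup.zpowers q' := (hiff _).2 (by
    rw [show k * (k⁻¹ * q * k) * k⁻¹ = q by group]; exact Subgroup.mem_zpowers _)
  rw [← c.card_cent_five hq h5]
  refine Nat.card_congr ((MulAut.conj k).toEquiv.subtypeEquiv fun y => ?_)
  simp only [Subgroup.mem_inf, Subgroup.mem_centralizer_singleton_iff]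
  show _ ↔ k * y * k⁻¹ * c.z = c.z * (k * y * k⁻¹) ∧ k * y * k⁻¹ * q = q * (k * y * k⁻¹)
  constructor
  · rintro ⟨h1, h2⟩
    refine ⟨?_, ?_⟩
    · have := (Commute.conj (show Commute y (g * c.z * g⁻¹) from h2) k).eq
      rwa [hk] at this
    · have h3 : Commute y (k⁻¹ * q * k) := by
        rw [← hj]; exact (show Commute y q' from h1).zpow_right j
      have := (h3.conj k).eq
      rwa [show k * (k⁻¹ * q * k) * k⁻¹ = q by group] at this
  · rintro ⟨h1, h2⟩
    refine ⟨?_, ?_⟩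
    · have h3 : Commute (k * y * k⁻¹) (k * q' * k⁻¹) := by
        rw [← show q ^ i = k * q' * k⁻¹ from hi]; exact (show Commute _ q from h2).zpow_right i
      have := (h3.conj k⁻¹).eq
      simp only [inv_inv] at this
      rwa [show k⁻¹ * (k * y * k⁻¹) * k = y by group,
        show k⁻¹ * (k * q' * k⁻¹) * k = q' by group] at this
    · have h3 : Commute (k * y * k⁻¹) (k * (g * c.z * g⁻¹) * k⁻¹) := by rw [hk]; exact h1
      have := (h3.conj k⁻¹).eq
      simp only [inv_inv] at this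
      rwa [show k⁻¹ * (k * y * k⁻¹) * k = y by group,
        show k⁻¹ * (k * (g * c.z * g⁻¹) * k⁻¹) * k = g * c.z * g⁻¹ by group] at this

/-- An element of the centraliser of `p` in `H` realising each power of `q`. -/
theorem exists_power_map {j : ℤ} (hj : q ^ j ≠ 1) : ∃ u ∈ c.C, u * q * u⁻¹ = q ^ j := by
  have hs := c.orderOf_sig_five hq h5
  have hjn : ∃ i : Fin 4, q ^ j = q ^ (![1, 2, 3, 4] : Fin 4 → ℕ) i := by
    obtain ⟨n, hn, he⟩ := J4Facts21.zpowers_cases (p := 5) (by norm_num)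
      (h5 ▸ pow_orderOf_eq_one q) (zpow_mem (Subgroup.mem_zpowers q) j)
    rcases Nat.eq_zero_or_pos n with rfl | hpos
    · exact absurd (by rw [he, pow_zero]) hj
    · refine ⟨⟨n - 1, by omega⟩, ?_⟩
      rw [he]
      interval_cases n <;> rfl
  obtain ⟨i, hi⟩ := hjn
  obtain ⟨m, hm⟩ := J4Facts21.five_exists_pow hs i
  obtain ⟨⟨u, hu⟩, hum⟩ := c.sig_surjective m
  refine ⟨u, hu, ?_⟩
  set n := (![1, 2, 3, 4] : Fin 4 → ℕ) i
  have hw : u * q * u⁻¹ ∈ c.C := mul_mem (mul_mem hu hq) (inv_mem hu)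
  have hqn : q ^ n ∈ c.C := pow_mem hq n
  have h5' : q ^ 5 = 1 := h5 ▸ pow_orderOf_eq_one q
  have e : c.toX hw = c.toX hqn := by
    refine c.setup.rep.lift_five_unique ?_ ?_ ?_
    · show c.sig ⟨u * q * u⁻¹, hw⟩ = c.sig ⟨q ^ n, hqn⟩
      rw [show (⟨u * q * u⁻¹, hw⟩ : c.C) = ⟨u, hu⟩ * ⟨q, hq⟩ * ⟨u, hu⟩⁻¹ from rfl,
        show (⟨q ^ n, hqn⟩ : c.C) = ⟨q, hq⟩ ^ n from rfl, map_mul, map_mul, map_inv, map_pow, hum, hm]
    · rw [toX, ← QuotientGroup.mk_pow, show c.toC hw ^ 5 = 1 from Subtype.ext (Subtype.ext (by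
        show (u * q * u⁻¹) ^ 5 = 1
        rw [conj_pow, h5', mul_one, mul_inv_cancel])), QuotientGroup.mk_one]
    · rw [toX, ← QuotientGroup.mk_pow, show c.toC hqn ^ 5 = 1 from Subtype.ext (Subtype.ext (by
        show (q ^ n) ^ 5 = 1
        rw [← pow_mul, mul_comm, pow_mul, h5', one_pow])), QuotientGroup.mk_one]
  have h1 : c.toX (mul_mem (inv_mem hqn) hw) = 1 := by
    show (c.toX hqn)⁻¹ * c.toX hw = 1
    rw [e, inv_mul_cancel]
  rw [hi]
  rcases (c.toX_eq_one _).1 h1 with h | h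
  · exact (inv_mul_eq_one.1 h).symm
  · exfalso
    have hh : (u * q * u⁻¹) ^ 5 = (q ^ n * c.z) ^ 5 := by rw [inv_mul_eq_iff_eq_mul.1 h]
    rw [conj_pow, h5', mul_one, mul_inv_cancel, (c.commute_z hqn.1).mul_pow, ← pow_mul, mul_comm n,
      pow_mul, h5', one_pow, one_mul, pow_succ, show c.z ^ 4 = 1 by
        rw [show 4 = 2 * 2 from rfl, pow_mul, pow_two c.z, c.z_mul_self, one_pow], one_mul] at hh
    exact c.z_ne_one hh.symm

/-- The conjugates of `z` commuting with `q` are conjugate under its centraliser. -/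
theorem exists_centFive_conj {t : G} (ht : IsConj c.z t) (hc : Commute q t) :
    ∃ n, Commute n q ∧ n * c.z * n⁻¹ = t := by
  obtain ⟨g, rfl⟩ := isConj_iff.1 ht
  obtain ⟨k, hk, hiff⟩ := c.exists_conj_pair hq h5 h5 hc
  obtain ⟨j, hj⟩ := (hiff q).1 (Subgroup.mem_zpowers _)
  have hj' : q ^ j = k * q * k⁻¹ := hj
  have hne : q ^ j ≠ 1 := by
    rw [hj']
    intro h
    have := conj_eq_one_iff.1 h
    rw [this, orderOf_one] at h5
    omega
  obtain ⟨u, hu, huq⟩ := c.exists_power_map hq h5 hne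
  refine ⟨k⁻¹ * u, mul_inv_eq_iff_eq_mul.1 ?_, ?_⟩
  · rw [show k⁻¹ * u * q * (k⁻¹ * u)⁻¹ = k⁻¹ * (u * q * u⁻¹) * k by group, huq, hj']
    group
  · rw [show k⁻¹ * u * c.z * (k⁻¹ * u)⁻¹ = k⁻¹ * (u * c.z * u⁻¹) * k by group,
      (c.commute_z hu.1).eq, mul_inv_cancel_right]
    conv_lhs => rw [← hk]
    group

theorem z_mem_centFive : c.z ∈ centFive q := mem_centFive.2 (c.commute_z hq.1).symm

theorem fixFive_le : c.fixFive q ≤ centFive q := inf_le_right

theorem mkFive_injOn {e e' : centFive q} (he : (e : G) ∈ c.E) (he' : (e' : G) ∈ c.E)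
    (h : mkFive q e = mkFive q e') : e = e' := by
  have hmem : ((e⁻¹ * e' : centFive q) : G) ∈ Subgroup.zpowers q :=
    (QuotientGroup.eq (s := genFive q)).1 h
  have h4 : ((e⁻¹ * e' : centFive q) : G) ^ 4 = 1 := by
    have hE : ((e⁻¹ * e' : centFive q) : G) ∈ c.E := mul_mem (inv_mem he) he'
    rw [show 4 = 2 * 2 from rfl, pow_mul, pow_two ((e⁻¹ * e' : centFive q) : G)]
    rcases c.sqE hE with e2 | e2 <;> rw [e2]
    · rw [one_pow]
    · rw [pow_two, c.z_mul_self]
  exact inv_mul_eq_one.1 (Subtype.ext (eq_one_of_zpowers_five h5 hmem (by norm_num) h4))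

theorem card_map_mkFive {A : Subgroup G} (hA : A ≤ c.fixFive q) :
    Nat.card ↥((A.subgroupOf (centFive q)).map (mkFive q)) = Nat.card A := by
  rw [← Nat.card_congr (Subgroup.subgroupOfEquivOfLe (hA.trans (c.fixFive_le hq h5))).toEquiv]
  let f : A.subgroupOf (centFive q) →* ↥((A.subgroupOf (centFive q)).map (mkFive q)) :=
    (mkFive q).subgroupMap _
  refine (Nat.card_congr (Equiv.ofBijective f ⟨?_, (mkFive q).subgroupMap_surjective _⟩)).symm
  intro a b hab
  exact Subtype.ext (c.mkFive_injOn hq h5 (hA a.2).1 (hA b.2).1 (congrArg Subtype.val hab))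

theorem exists_fiveData
    (hmod : ∀ V : Subgroup G, (∀ x ∈ V, x * x = 1) → Nat.card V = 2 ^ 11 → c.z ∈ V →
      Nat.card {x : G // x ∈ V ∧ IsConj c.z x} % 5 = 1)
    (hsmall : ∀ t : G, orderOf t = 2 → ¬ IsConj c.z t → Commute q t →
      Nat.card ↥(Subgroup.centralizer ({q} : Set G) ⊓ Subgroup.centralizer ({t} : Set G)) ≤ 80) :
    ∃ d : J4Five67.Data (QuotFive q), d.z = mkFive q ⟨c.z, c.z_mem_centFive hq h5⟩ := by
  obtain ⟨A₁, A₂, h₁, h₂, hA⟩ := c.exists_layer_pair hq h5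
  set π := mkFive q with hπ
  set zC : centFive q := ⟨c.z, c.z_mem_centFive hq h5⟩
  have hzz : zC * zC = 1 := Subtype.ext c.z_mul_self
  have hcomap : ∀ {t : centFive q}, t * t = 1 →
      Nat.card ↥(centFive q ⊓ Subgroup.centralizer ({(t : G)} : Set G)) =
        5 * Nat.card (Subgroup.centralizer ({π t} : Set (QuotFive q))) := by
    intro t ht
    have hco : (Subgroup.centralizer ({π t} : Set (QuotFive q))).comap π =
        (Subgroup.centralizer ({(t : G)} : Set G)).subgroupOf (centFive q) := by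
      ext y
      rw [Subgroup.mem_comap, Subgroup.mem_centralizer_singleton_iff, Subgroup.mem_subgroupOf,
        Subgroup.mem_centralizer_singleton_iff]
      exact ⟨fun h => congrArg Subtype.val (commute_of_mkFive h5 ht h).eq,
        fun h => by rw [← map_mul, ← map_mul]; exact congrArg π (Subtype.ext h)⟩
    have h := Subgroup.card_mul_index ((Subgroup.centralizer ({π t} : Set (QuotFive q))).comap π)
    rw [Subgroup.index_comap_of_surjective (f := π) _ (QuotientGroup.mk'_surjective _),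
      Subgroup.card_eq_card_quotient_mul_card_subgroup (genFive q),
      Nat.card_congr (Subgroup.subgroupOfEquivOfLe (Subgroup.zpowers_le.2
        (mem_centFive.2 (Commute.refl q)))).toEquiv, Nat.card_zpowers, h5,
      ← Subgroup.card_mul_index (Subgroup.centralizer ({π t} : Set (QuotFive q))), hco] at h
    have hpos : 0 < (Subgroup.centralizer ({π t} : Set (QuotFive q))).index :=
      Nat.pos_of_ne_zero Subgroup.index_ne_zero_of_finite
    rw [← Subgroup.inf_subgroupOf_left, Nat.card_congr (Subgroup.subgroupOfEquivOfLe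
      inf_le_left).toEquiv] at h
    refine Nat.eq_of_mul_eq_mul_right hpos (h.trans ?_)
    ring
  have hconjX : ∀ {t : centFive q}, t * t = 1 → IsConj (π zC) (π t) → IsConj c.z (t : G) := by
    intro t ht h
    obtain ⟨γ, hγ⟩ := isConj_iff.1 h
    obtain ⟨γ, rfl⟩ := QuotientGroup.mk'_surjective _ γ
    have := eq_of_mkFive h5 (x := γ * zC * γ⁻¹) (by
      rw [show γ * zC * γ⁻¹ * (γ * zC * γ⁻¹) = γ * (zC * zC) * γ⁻¹ by group, hzz]; group) ht
      (by rw [map_mul, map_mul, map_inv]; exact hγ)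
    exact isConj_iff.2 ⟨γ, congrArg Subtype.val this⟩
  have hconjX' : ∀ {t : centFive q}, IsConj c.z (t : G) → IsConj (π zC) (π t) := by
    intro t h
    obtain ⟨n, hn, hnz⟩ := c.exists_centFive_conj hq h5 h (mem_centFive.1 t.2).symm
    refine isConj_iff.2 ⟨π ⟨n, mem_centFive.2 hn⟩, ?_⟩
    rw [← map_inv, ← map_mul, ← map_mul]
    exact congrArg π (Subtype.ext hnz)
  have hlift : ∀ {A : Subgroup G}, c.FiveLayer q A → ∀ a ∈ (A.subgroupOf (centFive q)).map π,
      a ≠ 1 → a ≠ π zC → ¬ IsConj (π zC) a ∨ ¬ IsConj (π zC) (a * π zC) := by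
    rintro A hA _ ⟨e, he, rfl⟩ h1 hz
    rcases hA.lift c h5 hmod (a := (e : G)) he (fun h => h1 (by
        rw [show e = 1 from Subtype.ext h, map_one]))
        (fun h => hz (congrArg π (Subtype.ext h))) with h | h
    · exact Or.inl fun hc => h (hconjX (Subtype.ext (hA.sq _ he)) hc)
    · refine Or.inr fun hc => h ?_
      rw [← map_mul] at hc
      exact hconjX (Subtype.ext (hA.sq _ (mul_mem he hA.zmem))) hc
  refine ⟨
    { z := π zC
      O := ((c.fixFive q).subgroupOf (centFive q)).map π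
      inn := (c.inn.subgroupOf (centFive q)).map π
      A1 := (A₁.subgroupOf (centFive q)).map π
      A2 := (A₂.subgroupOf (centFive q)).map π
      zne := fun h => c.z_ne_one (congrArg Subtype.val
        (eq_of_mkFive h5 hzz (one_mul 1) (h.trans (map_one π).symm)))
      zz := by rw [← map_mul, hzz, map_one]
      zmem := ⟨zC, h₁.le h₁.zmem, rfl⟩
      zO := ?_
      cardC := ?_
      cardO := by rw [c.card_map_mkFive hq h5 le_rfl, c.card_fixFive hq h5]
      normalO := ?_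
      commO := ?_
      centO := ?_
      O_le_inn := Subgroup.map_mono fun e he => Subgroup.mem_sup_left he.1
      inn_invol := ?_
      inn_mul := ?_
      symm := ?_
      A1_le := Subgroup.map_mono fun e he => h₁.le he
      A2_le := Subgroup.map_mono fun e he => h₂.le he
      A1_sq := ?_
      A2_sq := ?_
      A1_z := ⟨zC, h₁.zmem, rfl⟩
      A2_z := ⟨zC, h₂.zmem, rfl⟩
      A1_card := by rw [c.card_map_mkFive hq h5 h₁.le, h₁.card]
      A2_card := by rw [c.card_map_mkFive hq h5 h₂.le, h₂.card]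
      disj := ?_
      lift1 := hlift h₁
      lift2 := hlift h₂
      small := ?_ }, rfl⟩
  · rintro _ ⟨e, he, rfl⟩
    exact (show Commute e zC from Subtype.ext (c.commute_z (c.E_le he.1)).eq).map π
  · have h := hcomap hzz
    have h2 := c.card_cent_five hq h5
    rw [inf_comm] at h2
    change Nat.card ↥(centFive q ⊓ Subgroup.centralizer ({c.z} : Set G)) = 960 at h2
    rw [show (zC : G) = c.z from rfl, h2] at h
    omega
  · intro g hg
    obtain ⟨g, rfl⟩ := QuotientGroup.mk'_surjective _ g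
    rintro _ ⟨e, he, rfl⟩
    have hgz := commute_of_mkFive h5 hzz hg
    refine ⟨g * e * g⁻¹, ⟨c.normal_E (mem_cz.2 (congrArg Subtype.val hgz.eq)) he.1,
      (g * e * g⁻¹).2⟩, ?_⟩
    rw [map_mul, map_mul, map_inv]
  · rintro _ ⟨a, ha, rfl⟩ _ ⟨b, hb, rfl⟩
    rw [← map_inv, ← map_inv, ← map_mul, ← map_mul, ← map_mul]
    rcases c.commE ha.1 hb.1 with h | h
    · exact Or.inl (by rw [show a * b * a⁻¹ * b⁻¹ = 1 from Subtype.ext h, map_one])
    · exact Or.inr (by rw [show a * b * a⁻¹ * b⁻¹ = zC from Subtype.ext h])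
  · rintro _ ⟨a, ha, rfl⟩ h
    have hcomm : ∀ b ∈ c.fixFive q, Commute (a : G) b := by
      intro b hb
      have hb' : b ∈ centFive q := c.fixFive_le hq h5 hb
      have h1 : Commute (π a) (π ⟨b, hb'⟩) := h _ ⟨⟨b, hb'⟩, hb, rfl⟩
      rw [commute_iff_eq, ← map_mul, ← map_mul] at h1
      have h2 := c.mkFive_injOn hq h5 (e := a * ⟨b, hb'⟩) (e' := ⟨b, hb'⟩ * a)
        (mul_mem ha.1 hb.1) (mul_mem hb.1 ha.1) h1
      exact congrArg Subtype.val h2
    rcases c.center_fixFive hq h5 ha hcomm with e | e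
    · exact Or.inl (by rw [show a = 1 from Subtype.ext e, map_one])
    · exact Or.inr (congrArg π (Subtype.ext e))
  · rintro _ ⟨y, hy, rfl⟩ h2
    obtain ⟨y', hy', he, n, rfl⟩ := exists_lift_invol h5 h2
    rw [← he]
    have hyn : ((y ^ n : centFive q) : G) ∈ c.inn := by
      rw [SubmonoidClass.coe_pow]; exact pow_mem hy n
    have hH : ((y ^ n : centFive q) : G) ∈ c.H :=
      (sup_le c.E_le inf_le_left : c.E ⊔ c.C ≤ c.H) hyn
    exact ⟨_, ⟨c.invol_inn hq h5 hyn hH (mem_centFive.1 (y ^ n).2) (congrArg Subtype.val hy'),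
      (y ^ n).2⟩, rfl⟩
  · intro a b ha hb ha' hb'
    obtain ⟨a, rfl⟩ := QuotientGroup.mk'_surjective _ a
    obtain ⟨b, rfl⟩ := QuotientGroup.mk'_surjective _ b
    have hz : ∀ {x : centFive q}, Commute (π x) (π zC) → (x : G) ∈ c.H := fun h =>
      mem_cz.2 (congrArg Subtype.val (commute_of_mkFive h5 hzz h).eq)
    refine ⟨a * b, ?_, map_mul π a b⟩
    exact c.inn_mul (hz ha) (hz hb) (fun h => ha' ⟨a, h, rfl⟩) fun h => hb' ⟨b, h, rfl⟩
  · intro g hg
    obtain ⟨γ, rfl⟩ := QuotientGroup.mk'_surjective _ g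
    obtain ⟨e, he, hee⟩ := hg
    rw [← map_inv, ← map_mul, ← map_mul] at hee
    have hw : γ * zC * γ⁻¹ * (γ * zC * γ⁻¹) = 1 := by
      rw [show γ * zC * γ⁻¹ * (γ * zC * γ⁻¹) = γ * (zC * zC) * γ⁻¹ by group, hzz]; group
    have he2 : e * e = 1 := c.mkFive_injOn hq h5 (e := e * e) (e' := 1) (mul_mem he.1 he.1)
      (one_mem c.E) (by rw [map_mul, hee, ← map_mul, hw])
    have hmem : ((γ * zC * γ⁻¹ : centFive q) : G) ∈ c.E := by
      rw [← eq_of_mkFive h5 he2 hw hee]; exact he.1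
    refine ⟨γ⁻¹ * zC * γ, ⟨c.symm_E hmem, (γ⁻¹ * zC * γ).2⟩, ?_⟩
    rw [map_mul, map_mul, map_inv]
  · rintro _ ⟨e, he, rfl⟩
    rw [← map_mul, show e * e = 1 from Subtype.ext (h₁.sq _ he), map_one]
  · rintro _ ⟨e, he, rfl⟩
    rw [← map_mul, show e * e = 1 from Subtype.ext (h₂.sq _ he), map_one]
  · rintro _ ⟨a, ha, rfl⟩ ⟨b, hb, hab⟩
    have hba := c.mkFive_injOn hq h5 (h₂.le hb).1 (h₁.le ha).1 hab
    rcases hA a ha (hba ▸ hb) with h | h
    · exact Or.inl (by rw [show a = 1 from Subtype.ext h, map_one])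
    · exact Or.inr (congrArg π (Subtype.ext h))
  · intro b hb2 hb1 hn
    obtain ⟨b, rfl⟩ := QuotientGroup.mk'_surjective _ b
    obtain ⟨t, ht, he, -, -⟩ := exists_lift_invol h5 hb2
    rw [← he] at hn hb1 ⊢
    have hto : orderOf (t : G) = 2 := orderOf_eq_prime (by
      rw [pow_two]; exact congrArg Subtype.val ht) fun h => hb1 (by
      rw [show t = 1 from Subtype.ext h, map_one])
    have h80 := hsmall t hto (fun h => hn (hconjX' h)) (mem_centFive.1 t.2).symm
    rw [hcomap ht] at h80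
    show Nat.card (Subgroup.centralizer ({π t} : Set (QuotFive q))) ≤ 16
    omega

theorem card_centFive
    (hmod : ∀ V : Subgroup G, (∀ x ∈ V, x * x = 1) → Nat.card V = 2 ^ 11 → c.z ∈ V →
      Nat.card {x : G // x ∈ V ∧ IsConj c.z x} % 5 = 1)
    (hsmall : ∀ t : G, orderOf t = 2 → ¬ IsConj c.z t → Commute q t →
      Nat.card ↥(Subgroup.centralizer ({q} : Set G) ⊓ Subgroup.centralizer ({t} : Set G)) ≤ 80) :
    Nat.card (centFive q) = 6720 := by
  obtain ⟨d, -⟩ := c.exists_fiveData hq h5 hmod hsmall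
  obtain ⟨E, hEO, hzE, hE8, hEsq, hE⟩ := d.exists_eight
  rw [Subgroup.card_eq_card_quotient_mul_card_subgroup (genFive q),
    d.card_eq hEO hzE hE8 hEsq hE,
    Nat.card_congr (Subgroup.subgroupOfEquivOfLe (Subgroup.zpowers_le.2
      (mem_centFive.2 (Commute.refl q)))).toEquiv, Nat.card_zpowers, h5]

end Five

end CfsgLib.Jf18.Ctx
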