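import Cfsg.Agent.J4Type67.Pairing
import Cfsg.Agent.J4Type67.Module

/-!
A finite group with an involution centraliser of order 192 as in the centraliser of an element of
order five in a group of Janko-four type: it has a normal elementary abelian subgroup of order 8
and order 1344.
-/

set_option autoImplicit false

namespace CfsgLib.J4Five67

open CfsgLib.J4Type67 (pairing_bound mul_card_le)

universe u

theorem index_centralizer_eq {X : Type*} [Group X] (x : X) :
    (Subgroup.centralizer ({x} : Set X)).index = (conjugatesOf x).ncard := by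
  rw [Subgroup.centralizer_eq_comap_stabilizer]
  erw [Subgroup.index_comap_of_surjective (f := ConjAct.toConjAct.toMonoidHom) _
    ConjAct.toConjAct.surjective, MulAction.index_stabilizer]
  congr 1
  ext y
  rw [ConjAct.mem_orbit_conjAct, conjugatesOf, Set.mem_setOf_eq, isConj_comm]

/-- The hypotheses on an involution centraliser inside the centraliser of an element of order
five. -/
structure Data (X : Type u) [Group X] where
  z : X
  O : Subgroup X
  inn : Subgroup X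
  A1 : Subgroup X
  A2 : Subgroup X
  zne : z ≠ 1
  zz : z * z = 1
  zmem : z ∈ O
  zO : ∀ a ∈ O, Commute a z
  cardC : Nat.card (Subgroup.centralizer ({z} : Set X)) = 192
  cardO : Nat.card O = 32
  normalO : ∀ g, Commute g z → ∀ a ∈ O, g * a * g⁻¹ ∈ O
  commO : ∀ a ∈ O, ∀ b ∈ O, a * b * a⁻¹ * b⁻¹ = 1 ∨ a * b * a⁻¹ * b⁻¹ = z
  centO : ∀ a ∈ O, (∀ b ∈ O, Commute a b) → a = 1 ∨ a = z
  O_le_inn : O ≤ inn
  inn_invol : ∀ a ∈ inn, a * a = 1 → a ∈ O
  inn_mul : ∀ a b, Commute a z → Commute b z → a ∉ inn → b ∉ inn → a * b ∈ inn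
  symm : ∀ g, g * z * g⁻¹ ∈ O → g⁻¹ * z * g ∈ O
  A1_le : A1 ≤ O
  A2_le : A2 ≤ O
  A1_sq : ∀ a ∈ A1, a * a = 1
  A2_sq : ∀ a ∈ A2, a * a = 1
  A1_z : z ∈ A1
  A2_z : z ∈ A2
  A1_card : Nat.card A1 = 8
  A2_card : Nat.card A2 = 8
  disj : ∀ a ∈ A1, a ∈ A2 → a = 1 ∨ a = z
  lift1 : ∀ a ∈ A1, a ≠ 1 → a ≠ z → ¬ IsConj z a ∨ ¬ IsConj z (a * z)
  lift2 : ∀ a ∈ A2, a ≠ 1 → a ≠ z → ¬ IsConj z a ∨ ¬ IsConj z (a * z)
  small : ∀ b, b * b = 1 → b ≠ 1 → ¬ IsConj z b →
    Nat.card (Subgroup.centralizer ({b} : Set X)) ≤ 16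

namespace Data

variable {X : Type u} [Group X] [Finite X] (d : Data X)

omit [Finite X] in
theorem conj_sq {g : X} : g * d.z * g⁻¹ * (g * d.z * g⁻¹) = 1 := by
  rw [show g * d.z * g⁻¹ * (g * d.z * g⁻¹) = g * (d.z * d.z) * g⁻¹ by group, d.zz, mul_one,
    mul_inv_cancel]

omit [Finite X] in
theorem conj_ne_one {g : X} : g * d.z * g⁻¹ ≠ 1 := fun h => d.zne (conj_eq_one_iff.1 h)

omit [Finite X] in
theorem isConj_iff' {v : X} : IsConj d.z v ↔ ∃ g, g * d.z * g⁻¹ = v := isConj_iff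

omit [Finite X] in
theorem comm_iff {a b : X} : a * b * a⁻¹ * b⁻¹ = 1 ↔ Commute a b := by
  rw [mul_inv_eq_one, mul_inv_eq_iff_eq_mul]
  rfl

/-- An abelian subgroup of `O` has order at most 8. -/
theorem card_abelian {D : Subgroup X} (hD : D ≤ d.O) (hc : ∀ a ∈ D, ∀ b ∈ D, Commute a b) :
    Nat.card D ≤ 8 := by
  have h := pairing_bound (z := d.z) (U := D) (T := d.O) fun u hu t ht => d.commO u (hD hu) t ht
  have h1 : Nat.card D ≤ Nat.card ↥(d.O ⊓ Subgroup.centralizer (D : Set X)) :=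
    Subgroup.card_le_of_le fun x hx =>
      ⟨hD hx, Subgroup.mem_centralizer_iff.2 fun y hy => (hc y hy x hx).eq⟩
  have h2 : Nat.card ↥(D ⊓ Subgroup.centralizer (d.O : Set X)) ≤ 2 := by
    have hle : D ⊓ Subgroup.centralizer (d.O : Set X) ≤ Subgroup.zpowers d.z := fun x hx => by
      rcases d.centO x (hD hx.1) fun b hb => (Subgroup.mem_centralizer_iff.1 hx.2 b hb).symm with
        rfl | rfl
      exacts [one_mem _, Subgroup.mem_zpowers _]
    refine (Subgroup.card_le_of_le hle).trans ?_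
    rw [Nat.card_zpowers]
    exact orderOf_le_of_pow_eq_one (by norm_num) (by rw [pow_two, d.zz])
  have h3 := (Nat.mul_le_mul_left (Nat.card D) h1).trans (h.trans (Nat.mul_le_mul_right _ h2))
  rw [d.cardO] at h3
  by_contra hlt
  have := Nat.mul_le_mul (show 9 ≤ Nat.card D by omega) (show 9 ≤ Nat.card D by omega)
  omega

theorem card_centO {b : X} (hb : b ∈ d.O) :
    16 ≤ Nat.card ↥(d.O ⊓ Subgroup.centralizer ({b} : Set X)) := by
  have h := pairing_bound (z := d.z) (U := d.O) (T := Subgroup.zpowers b) fun u hu t ht =>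
    d.commO u hu t (Subgroup.zpowers_le.2 hb ht)
  have hle : d.O ⊓ Subgroup.centralizer (Subgroup.zpowers b : Set X) ≤
      d.O ⊓ Subgroup.centralizer ({b} : Set X) :=
    inf_le_inf_left _ (Subgroup.centralizer_le (by simp))
  have h1 := Subgroup.card_le_of_le hle
  rw [d.cardO] at h
  have hb2 : Nat.card (Subgroup.zpowers b) ≤ 2 * Nat.card
      ↥(Subgroup.zpowers b ⊓ Subgroup.centralizer (d.O : Set X)) := by
    have hsq : b ^ 2 ∈ Subgroup.centralizer (d.O : Set X) := by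
      rw [Subgroup.mem_centralizer_iff]
      intro o ho
      rcases d.commO o ho b hb with e | e
      · exact ((comm_iff.1 e).pow_right 2).eq
      · have e' : o * b * o⁻¹ = d.z * b := mul_inv_eq_iff_eq_mul.1 e
        have : o * b ^ 2 * o⁻¹ = b ^ 2 := by
          rw [show o * b ^ 2 * o⁻¹ = o * b * o⁻¹ * (o * b * o⁻¹) by rw [pow_two]; group, e',
            show d.z * b * (d.z * b) = d.z * (b * d.z) * b by group, (d.zO b hb).eq,
            show d.z * (d.z * b) * b = d.z * d.z * (b * b) by group, d.zz, one_mul, pow_two]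
        exact mul_inv_eq_iff_eq_mul.1 this
    have hle2 : Subgroup.zpowers (b ^ 2) ≤
        Subgroup.zpowers b ⊓ Subgroup.centralizer (d.O : Set X) :=
      Subgroup.zpowers_le.2 ⟨Subgroup.npow_mem_zpowers b 2, hsq⟩
    refine le_trans ?_ (Nat.mul_le_mul_left 2 (Subgroup.card_le_of_le hle2))
    rw [Nat.card_zpowers, Nat.card_zpowers, orderOf_pow' b (by norm_num : (2:ℕ) ≠ 0)]
    have hg : Nat.gcd (orderOf b) 2 ∣ 2 := Nat.gcd_dvd_right _ _
    have hd : Nat.gcd (orderOf b) 2 ∣ orderOf b := Nat.gcd_dvd_left _ _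
    have hg2 : Nat.gcd (orderOf b) 2 ≤ 2 := Nat.le_of_dvd (by norm_num) hg
    obtain ⟨k, hk⟩ := hd
    have hg0 : 0 < Nat.gcd (orderOf b) 2 := Nat.gcd_pos_of_pos_right _ (by norm_num)
    conv_lhs => rw [hk]
    rw [show orderOf b / Nat.gcd (orderOf b) 2 = k from
      Nat.div_eq_of_eq_mul_right hg0 hk]
    exact Nat.mul_le_mul_right _ hg2
  have h2 := h.trans (Nat.mul_le_mul_left _ hb2)
  have hpos : 0 < Nat.card ↥(Subgroup.zpowers b ⊓ Subgroup.centralizer (d.O : Set X)) :=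
    Nat.card_pos
  have h3 : 32 * Nat.card ↥(Subgroup.zpowers b ⊓ Subgroup.centralizer (d.O : Set X)) ≤
      (2 * Nat.card ↥(d.O ⊓ Subgroup.centralizer (Subgroup.zpowers b : Set X))) *
        Nat.card ↥(Subgroup.zpowers b ⊓ Subgroup.centralizer (d.O : Set X)) := by
    refine h2.trans (le_of_eq ?_); ring
  have h4 := Nat.le_of_mul_le_mul_right h3 hpos
  omega

/-- An involution of `O` not conjugate to `z` has its centraliser inside `O`. -/
theorem cent_eq {b : X} (hb : b ∈ d.O) (hb2 : b * b = 1) (h1 : b ≠ 1) (hn : ¬ IsConj d.z b) :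
    Subgroup.centralizer ({b} : Set X) = d.O ⊓ Subgroup.centralizer ({b} : Set X) :=
  (Subgroup.eq_of_le_of_card_ge inf_le_right ((d.small b hb2 h1 hn).trans (d.card_centO hb))).symm

theorem cent_le {b : X} (hb : b ∈ d.O) (hb2 : b * b = 1) (h1 : b ≠ 1) (hn : ¬ IsConj d.z b)
    {x : X} (hx : Commute x b) : x ∈ d.O :=
  ((d.cent_eq hb hb2 h1 hn).le (Subgroup.mem_centralizer_singleton_iff.2 hx.eq)).1

theorem exists_noncomm {b : X} (hb : b ∈ d.O) :
    ∃ a ∈ d.O, ∃ c ∈ d.O, Commute a b ∧ Commute c b ∧ a * c * a⁻¹ * c⁻¹ = d.z := by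
  by_contra hno
  push Not at hno
  have h8 := d.card_abelian (D := d.O ⊓ Subgroup.centralizer ({b} : Set X)) inf_le_left
    fun a ha c hc => comm_iff.1 ((d.commO a ha.1 c hc.1).resolve_right
      (hno a ha.1 c hc.1 (Subgroup.mem_centralizer_singleton_iff.1 ha.2)
        (Subgroup.mem_centralizer_singleton_iff.1 hc.2)))
  have := d.card_centO hb
  omega

/-- An involution of `O` not conjugate to `z` lies in the conjugate of `O` only for `z` itself. -/
theorem unique_of_notConj {b : X} (hb : b ∈ d.O) (hb2 : b * b = 1) (h1 : b ≠ 1)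
    (hn : ¬ IsConj d.z b) {g : X} (hg : g⁻¹ * b * g ∈ d.O) : g * d.z * g⁻¹ = d.z := by
  obtain ⟨a, ha, c, hc, hab, hcb, hac⟩ := d.exists_noncomm hb
  have hb' : ¬ IsConj d.z (g⁻¹ * b * g) := fun h =>
    hn (h.trans (isConj_iff.2 ⟨g, by group⟩))
  have h1' : g⁻¹ * b * g ≠ 1 := fun h => h1 (by
    rw [show b = g * (g⁻¹ * b * g) * g⁻¹ by group, h, mul_one, mul_inv_cancel])
  have h2' : g⁻¹ * b * g * (g⁻¹ * b * g) = 1 := by
    rw [show g⁻¹ * b * g * (g⁻¹ * b * g) = g⁻¹ * (b * b) * g by group, hb2, mul_one, inv_mul_cancel]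
  have hmem : ∀ x, Commute x b → g⁻¹ * x * g ∈ d.O := fun x hx => by
    refine d.cent_le hg h2' h1' hb' ?_
    show g⁻¹ * x * g * (g⁻¹ * b * g) = g⁻¹ * b * g * (g⁻¹ * x * g)
    rw [show g⁻¹ * x * g * (g⁻¹ * b * g) = g⁻¹ * (x * b) * g by group, hx.eq]
    group
  have hz : g⁻¹ * a * g * (g⁻¹ * c * g) * (g⁻¹ * a * g)⁻¹ * (g⁻¹ * c * g)⁻¹ = g⁻¹ * d.z * g := by
    rw [← hac]; group
  rcases d.commO _ (hmem a hab) _ (hmem c hcb) with e | e <;> rw [hz] at e
  · exact absurd (show d.z = 1 by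
      rw [show d.z = g * (g⁻¹ * d.z * g) * g⁻¹ by group, e, mul_one, mul_inv_cancel]) d.zne
  · rw [show g * d.z * g⁻¹ = g * (g⁻¹ * d.z * g) * g⁻¹ by rw [e]]
    group

/-- Two non-conjugate involutions commute with a common involution. -/
theorem exists_between {v b : X} (hv : v * v = 1) (hb : b * b = 1) (hn : ¬ IsConj v b) :
    ∃ w, w * w = 1 ∧ w ≠ 1 ∧ Commute v w ∧ Commute w b := by
  set x := v * b with hx
  have hvi : v⁻¹ = v := inv_eq_of_mul_eq_one_right hv
  have hbi : b⁻¹ = b := inv_eq_of_mul_eq_one_right hb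
  have hvx : v * x * v⁻¹ = x⁻¹ := by rw [hx, mul_inv_rev, hbi, hvi, ← mul_assoc, hv, one_mul]
  have hbx : b * x * b⁻¹ = x⁻¹ := by
    rw [hx, mul_inv_rev, hbi, hvi, mul_assoc b (v * b), mul_assoc v b b, hb, mul_one]
  rcases Nat.even_or_odd (orderOf x) with ⟨k, hk⟩ | ⟨k, hk⟩
  · have hpos : 0 < orderOf x := orderOf_pos x
    refine ⟨x ^ k, ?_, ?_, ?_, ?_⟩
    · rw [← pow_add, ← hk, pow_orderOf_eq_one]
    · intro h
      have := orderOf_dvd_of_pow_eq_one h
      have := Nat.le_of_dvd (by omega) this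
      omega
    all_goals
      have hinv : (x ^ k)⁻¹ = x ^ k :=
        inv_eq_of_mul_eq_one_right (by rw [← pow_add, ← hk, pow_orderOf_eq_one])
    · have e : v * x ^ k * v⁻¹ = x ^ k := by rw [← conj_pow, hvx, inv_pow, hinv]
      exact mul_inv_eq_iff_eq_mul.1 e
    · have e : b * x ^ k * b⁻¹ = x ^ k := by rw [← conj_pow, hbx, inv_pow, hinv]
      exact (show Commute b (x ^ k) from mul_inv_eq_iff_eq_mul.1 e).symm
  · exfalso
    refine hn (isConj_iff.2 ⟨x⁻¹ ^ (k + 1), ?_⟩)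
    have e1 : v * x ^ (k + 1) * v⁻¹ = x⁻¹ ^ (k + 1) := by rw [← conj_pow, hvx]
    have e3 : x⁻¹ ^ (k + 1) * v = v * x ^ (k + 1) := (mul_inv_eq_iff_eq_mul.1 e1).symm
    have e4 : x ^ (k + 1) * x ^ (k + 1) = x := by
      rw [← pow_add, show k + 1 + (k + 1) = orderOf x + 1 by omega, pow_succ, pow_orderOf_eq_one,
        one_mul]
    rw [e3, inv_pow, inv_inv, mul_assoc, e4, hx, ← mul_assoc, hv, one_mul]

/-- The conjugates of `z` in `O`, apart from `z`. -/
def S : Set X := {x | x ∈ d.O ∧ x ≠ d.z ∧ IsConj d.z x}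

theorem card_Z : Nat.card (Subgroup.zpowers d.z) = 2 := by
  rw [Nat.card_zpowers]
  exact orderOf_eq_prime (by rw [pow_two, d.zz]) d.zne

omit [Finite X] in
theorem zpowers_cases {x : X} (hx : x ∈ Subgroup.zpowers d.z) : x = 1 ∨ x = d.z := by
  obtain ⟨i, rfl⟩ := hx
  have h2 : d.z ^ (2 : ℤ) = 1 := by rw [zpow_two]; exact d.zz
  rcases Int.even_or_odd i with ⟨k, rfl⟩ | ⟨k, rfl⟩
  · left; show d.z ^ (k + k) = 1; rw [← two_mul, zpow_mul, h2, one_zpow]
  · right; show d.z ^ (2 * k + 1) = d.z; rw [zpow_add, zpow_mul, h2, one_zpow, one_mul, zpow_one]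

/-- Two subgroups of order eight meeting in `Z` generate `O` as a product. -/
theorem exists_mul {A B : Subgroup X} (hA : A ≤ d.O) (hB : B ≤ d.O) (hAz : d.z ∈ A)
    (hA8 : Nat.card A = 8) (hB8 : Nat.card B = 8)
    (hd : ∀ a ∈ A, a ∈ B → a = 1 ∨ a = d.z) {x : X} (hx : x ∈ d.O) :
    ∃ a ∈ A, ∃ b ∈ B, x = a * b := by
  have hconj : ∀ a ∈ A, ∀ g ∈ d.O, g * a * g⁻¹ ∈ A := fun a ha g hg => by
    rcases d.commO g hg a (hA ha) with e | e
    · rw [mul_inv_eq_one.1 e]; exact ha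
    · rw [mul_inv_eq_iff_eq_mul.1 e]; exact mul_mem hAz ha
  let P : Subgroup X :=
    { carrier := {y | ∃ a ∈ A, ∃ b ∈ B, y = a * b}
      one_mem' := ⟨1, one_mem _, 1, one_mem _, (one_mul 1).symm⟩
      mul_mem' := by
        rintro _ _ ⟨a, ha, b, hb, rfl⟩ ⟨a', ha', b', hb', rfl⟩
        exact ⟨a * (b * a' * b⁻¹), mul_mem ha (hconj a' ha' b (hB hb)), b * b', mul_mem hb hb',
          by group⟩
      inv_mem' := by
        rintro _ ⟨a, ha, b, hb, rfl⟩
        exact ⟨b⁻¹ * a⁻¹ * b⁻¹⁻¹, hconj _ (inv_mem ha) _ (hB (inv_mem hb)), b⁻¹, inv_mem hb,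
          by group⟩ }
  have hPO : P ≤ d.O := by
    rintro _ ⟨a, ha, b, hb, rfl⟩; exact mul_mem (hA ha) (hB hb)
  have h := mul_card_le (A := A) (B := B) (C := P)
    (fun a ha => ⟨a, ha, 1, one_mem _, (mul_one a).symm⟩)
    (fun b hb => ⟨1, one_mem _, b, hb, (one_mul b).symm⟩)
  have h2 : Nat.card ↥(A ⊓ B) ≤ 2 := by
    rw [← d.card_Z]
    refine Subgroup.card_le_of_le fun y hy => ?_
    rcases hd y hy.1 hy.2 with rfl | rfl
    exacts [one_mem _, Subgroup.mem_zpowers _]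
  rw [hA8, hB8] at h
  have h3 := h.trans (Nat.mul_le_mul_right _ h2)
  exact (Subgroup.eq_of_le_of_card_ge hPO (by rw [d.cardO]; omega)).ge hx

/-- The intersection of `O` with a conjugate. -/
def K (g : X) : Subgroup X := d.O ⊓ d.O.comap (MulAut.conj g⁻¹).toMonoidHom

omit [Finite X] in
theorem mem_K {g x : X} : x ∈ d.K g ↔ x ∈ d.O ∧ g⁻¹ * x * g ∈ d.O := by
  show x ∈ d.O ∧ _ ↔ _
  simp

theorem K_props {g : X} (hg : g * d.z * g⁻¹ ∈ d.O) (hne : g * d.z * g⁻¹ ≠ d.z) :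
    8 ≤ Nat.card (d.K g) ∧ d.z ∈ d.K g ∧ g * d.z * g⁻¹ ∈ d.K g ∧
      (∀ k ∈ d.K g, k * k = 1) ∧ ∀ k ∈ d.K g, k = 1 ∨ k = d.z ∨ k ∈ d.S := by
  set w := g⁻¹ * d.z * g with hwdef
  have hw : w ∈ d.O := d.symm g hg
  have hzK : d.z ∈ d.K g := d.mem_K.2 ⟨d.zmem, hw⟩
  have huK : g * d.z * g⁻¹ ∈ d.K g := d.mem_K.2 ⟨hg, by
    rw [show g⁻¹ * (g * d.z * g⁻¹) * g = d.z by group]; exact d.zmem⟩
  have hgz : ∀ {e : X}, g⁻¹ * e * g = d.z → e = g * d.z * g⁻¹ := fun {e} h => by
    rw [← h]; group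
  have hsq : ∀ k ∈ d.K g, k * k = 1 := by
    intro k hk
    obtain ⟨h1, h2⟩ := d.mem_K.1 hk
    have key : ∀ a ∈ d.O, a * a = 1 ∨ a * a = d.z := fun a ha => by
      obtain ⟨x, hx, y, hy, rfl⟩ := d.exists_mul d.A1_le d.A2_le d.A1_z d.A1_card d.A2_card
        d.disj ha
      have hxi : x⁻¹ = x := inv_eq_of_mul_eq_one_right (d.A1_sq x hx)
      have hyi : y⁻¹ = y := inv_eq_of_mul_eq_one_right (d.A2_sq y hy)
      have := d.commO x (d.A1_le hx) y (d.A2_le hy)
      rwa [hxi, hyi, mul_assoc (x * y)] at this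
    rcases key k h1 with e | e
    · exact e
    · have e' : g⁻¹ * k * g * (g⁻¹ * k * g) = w := by rw [hwdef, ← e]; group
      rcases key _ h2 with f | f <;> rw [e'] at f
      · exact absurd (show d.z = 1 by
          rw [show d.z = g * w * g⁻¹ by rw [hwdef]; group, f, mul_one, mul_inv_cancel]) d.zne
      · exact absurd (hgz f).symm hne
  refine ⟨?_, hzK, huK, hsq, fun k hk => ?_⟩
  · -- the centraliser of the conjugate in its 2-group meets `O` in a large subgroup
    let φ := (MulAut.conj g).toMonoidHom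
    set L := (d.O ⊓ Subgroup.centralizer ({w} : Set X)).map φ
    have hL : 16 ≤ Nat.card L := by
      rw [Subgroup.card_map_of_injective (MulAut.conj g).injective]; exact d.card_centO hw
    have hLc : ∀ x ∈ L, Commute x d.z := by
      rintro _ ⟨a, ha, rfl⟩
      have e := Subgroup.mem_centralizer_singleton_iff.1 ha.2
      show g * a * g⁻¹ * d.z = d.z * (g * a * g⁻¹)
      rw [show d.z = g * w * g⁻¹ by rw [hwdef]; group,
        show g * a * g⁻¹ * (g * w * g⁻¹) = g * (a * w) * g⁻¹ by group, e]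
      group
    have hO2 : IsPGroup 2 d.O := IsPGroup.of_card (n := 5) (by rw [d.cardO]; norm_num)
    have hL2 : IsPGroup 2 L :=
      (hO2.to_le inf_le_left).map φ
    have hLn : L ≤ Subgroup.normalizer (d.O : Set X) := fun x hx => by
      rw [Subgroup.mem_normalizer_iff]
      refine fun y => ⟨fun hy => d.normalO x (hLc x hx) y hy, fun hy => ?_⟩
      have := d.normalO x⁻¹ (hLc x hx).inv_left _ hy
      simpa [mul_assoc] using this
    have hsup := hL2.to_sup_of_normal_right' hO2 hLn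
    have hle : L ⊔ d.O ≤ Subgroup.centralizer ({d.z} : Set X) := sup_le
      (fun x hx => Subgroup.mem_centralizer_singleton_iff.2 (hLc x hx).eq)
      (fun x hx => Subgroup.mem_centralizer_singleton_iff.2 (d.zO x hx).eq)
    haveI : Fact (Nat.Prime 2) := ⟨Nat.prime_two⟩
    obtain ⟨k, hk⟩ := IsPGroup.iff_card.1 hsup
    have h64 : Nat.card ↥(L ⊔ d.O) ≤ 64 := by
      have h := Subgroup.card_dvd_of_le hle
      rw [hk, d.cardC, show (192 : ℕ) = 2 ^ 6 * 3 by norm_num] at h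
      have h' : 2 ^ k ∣ 2 ^ 6 :=
        (Nat.Coprime.pow_left k (by norm_num : Nat.Coprime 2 3)).dvd_of_dvd_mul_right h
      rw [hk]
      exact Nat.le_of_dvd (by norm_num) h'
    have hKeq : Nat.card ↥(L ⊓ d.O) ≤ Nat.card (d.K g) := by
      refine Subgroup.card_le_of_le fun x hx => d.mem_K.2 ⟨hx.2, ?_⟩
      obtain ⟨a, ha, rfl⟩ := hx.1
      show g⁻¹ * (g * a * g⁻¹) * g ∈ d.O
      rw [show g⁻¹ * (g * a * g⁻¹) * g = a by group]
      exact ha.1
    have h := mul_card_le (A := L) (B := d.O) (C := L ⊔ d.O) le_sup_left le_sup_right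
    have h' := h.trans (Nat.mul_le_mul hKeq h64)
    rw [d.cardO] at h'
    omega
  · obtain ⟨h1, h2⟩ := d.mem_K.1 hk
    by_cases hk1 : k = 1
    · exact Or.inl hk1
    by_cases hkz : k = d.z
    · exact Or.inr (Or.inl hkz)
    refine Or.inr (Or.inr ⟨h1, hkz, by_contra fun hn => hne ?_⟩)
    exact d.unique_of_notConj h1 (hsq k hk) hk1 hn h2

/-- Some involution of `O` is not conjugate to `z`. -/
theorem exists_notConj : ∃ b ∈ d.O, b * b = 1 ∧ b ≠ 1 ∧ ¬ IsConj d.z b := by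
  obtain ⟨a, ha, ha1⟩ : ∃ a ∈ d.A1, a ∉ Subgroup.zpowers d.z := by
    by_contra h
    push Not at h
    have h2 := Subgroup.card_le_of_le (show d.A1 ≤ Subgroup.zpowers d.z from h)
    rw [d.A1_card, d.card_Z] at h2
    omega
  have h1 : a ≠ 1 := fun h => ha1 (h ▸ one_mem _)
  have h2 : a ≠ d.z := fun h => ha1 (h ▸ Subgroup.mem_zpowers _)
  rcases d.lift1 a ha h1 h2 with h | h
  · exact ⟨a, d.A1_le ha, d.A1_sq a ha, h1, h⟩
  · refine ⟨a * d.z, mul_mem (d.A1_le ha) d.zmem, d.A1_sq _ (mul_mem ha d.A1_z), fun e => h2 ?_, h⟩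
    rw [eq_inv_of_mul_eq_one_left e, inv_eq_of_mul_eq_one_right d.zz]

theorem S_nonempty : d.S.Nonempty := by
  classical
  haveI : Fact (Nat.Prime 2) := ⟨Nat.prime_two⟩
  set C := Subgroup.centralizer ({d.z} : Set X)
  have hOC : d.O ≤ C := fun y hy => Subgroup.mem_centralizer_singleton_iff.2 (d.zO y hy).eq
  obtain ⟨T, hT, hOT⟩ := Sylow.exists_subgroup_card_pow_prime_le (G := C) (p := 2) (n := 5) (m := 6)
    (by rw [d.cardC]; norm_num) (d.O.subgroupOf C)
    (by rw [Nat.card_congr (Subgroup.subgroupOfEquivOfLe hOC).toEquiv, d.cardO]; norm_num)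
    (by norm_num)
  have hidx : ((d.O.subgroupOf C).subgroupOf T).index = 2 := by
    have h := Subgroup.card_mul_index ((d.O.subgroupOf C).subgroupOf T)
    rw [Nat.card_congr (Subgroup.subgroupOfEquivOfLe hOT).toEquiv,
      Nat.card_congr (Subgroup.subgroupOfEquivOfLe hOC).toEquiv, d.cardO, hT] at h
    norm_num at h
    omega
  obtain ⟨x₀, hx₀T, hx₀O⟩ := SetLike.exists_of_lt (lt_of_le_of_ne hOT fun h => by
    rw [← h, Nat.card_congr (Subgroup.subgroupOfEquivOfLe hOC).toEquiv, d.cardO] at hT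
    norm_num at hT)
  set τ : X := (x₀ : X) with hτ
  have hτz : Commute τ d.z := Subgroup.mem_centralizer_singleton_iff.1 x₀.2
  have hτO : τ ∉ d.O := fun h => hx₀O h
  have hτ2 : τ * τ ∈ d.O := Subgroup.mul_self_mem_of_index_two hidx (⟨x₀, hx₀T⟩ : T)
  let f : X → X := fun a => τ * a * τ⁻¹
  have hf : ∀ a ∈ d.O, f a ∈ d.O := fun a ha => d.normalO τ hτz a ha
  have hfz : f d.z = d.z := by show τ * d.z * τ⁻¹ = d.z; rw [hτz.eq, mul_inv_cancel_right]
  have hfmul : ∀ a b, f (a * b) = f a * f b := fun a b => by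
    show τ * (a * b) * τ⁻¹ = τ * a * τ⁻¹ * (τ * b * τ⁻¹); group
  have hff : ∀ a ∈ d.O, f (f a) = a ∨ f (f a) = d.z * a := fun a ha => by
    rcases d.commO _ hτ2 a ha with e | e
    · left
      rw [show f (f a) = τ * τ * a * (τ * τ)⁻¹ by show τ * (τ * a * τ⁻¹) * τ⁻¹ = _; group]
      exact mul_inv_eq_one.1 e
    · right
      rw [show f (f a) = τ * τ * a * (τ * τ)⁻¹ by show τ * (τ * a * τ⁻¹) * τ⁻¹ = _; group]
      exact mul_inv_eq_iff_eq_mul.1 e
  -- a fixed class of involutions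
  obtain ⟨c, hc, hc2, hc1, hcz, hfc⟩ : ∃ c ∈ d.O, c * c = 1 ∧ c ≠ 1 ∧ c ≠ d.z ∧
      (f c = c ∨ f c = d.z * c) := by
    have hstep : ∀ a ∈ d.A1, a ≠ 1 → a ≠ d.z → Commute a (f a) → ∃ c ∈ d.O, c * c = 1 ∧ c ≠ 1 ∧
        c ≠ d.z ∧ (f c = c ∨ f c = d.z * c) := by
      intro a ha ha1 ha2 hc
      have haO := d.A1_le ha
      have haa := d.A1_sq a ha
      have hfa : f a * f a = 1 := by
        rw [← hfmul, haa]; show τ * 1 * τ⁻¹ = 1; rw [mul_one, mul_inv_cancel]
      by_cases hn : a * f a = 1 ∨ a * f a = d.z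
      · refine ⟨a, haO, haa, ha1, ha2, ?_⟩
        rcases hn with e | e
        · left; rw [← inv_eq_of_mul_eq_one_right e, inv_eq_of_mul_eq_one_right haa]
        · right
          rw [← inv_mul_cancel_left a (f a), e, inv_eq_of_mul_eq_one_right haa, (d.zO a haO).eq]
      push Not at hn
      refine ⟨a * f a, mul_mem haO (hf a haO), ?_, hn.1, hn.2, ?_⟩
      · rw [show a * f a * (a * f a) = a * (f a * a) * f a by group, ← hc.eq,
          show a * (a * f a) * f a = a * a * (f a * f a) by group, haa, hfa, one_mul]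
      · rw [hfmul]
        rcases hff a haO with e | e <;> rw [e]
        · left; exact hc.eq.symm
        · right
          rw [← mul_assoc, (d.zO _ (hf a haO)).eq, mul_assoc, ← hc.eq]
    obtain ⟨a₁, ha₁, h₁⟩ : ∃ a ∈ d.A1, a ∉ Subgroup.zpowers d.z := by
      by_contra h
      push Not at h
      have h2 := Subgroup.card_le_of_le (show d.A1 ≤ Subgroup.zpowers d.z from h)
      rw [d.A1_card, d.card_Z] at h2
      omega
    obtain ⟨a₂, ha₂, h₂, h₁₂⟩ : ∃ a ∈ d.A1, a ∉ Subgroup.zpowers d.z ∧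
        a₁ * a ∉ Subgroup.zpowers d.z := by
      by_contra h
      push Not at h
      have hsub : (d.A1 : Set X) ⊆ ↑({1, d.z, a₁⁻¹, a₁⁻¹ * d.z} : Finset X) := fun x hx => by
        by_cases hxz : x ∈ Subgroup.zpowers d.z
        · rcases d.zpowers_cases hxz with rfl | rfl <;> simp
        · rcases d.zpowers_cases (h x hx hxz) with e | e
          · simp [eq_inv_of_mul_eq_one_right e]
          · simp [(eq_inv_mul_iff_mul_eq.2 e)]
      have := Set.ncard_le_ncard hsub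
      rw [Set.ncard_coe_finset, ← Nat.card_coe_set_eq] at this
      have h4 := this.trans Finset.card_le_four
      have h8 : Nat.card (d.A1 : Set X) = 8 := d.A1_card
      omega
    have hne : ∀ a, a ∉ Subgroup.zpowers d.z → a ≠ 1 ∧ a ≠ d.z := fun a ha =>
      ⟨fun h => ha (h ▸ one_mem _), fun h => ha (h ▸ Subgroup.mem_zpowers _)⟩
    by_cases c1 : Commute a₁ (f a₁)
    · exact hstep a₁ ha₁ (hne _ h₁).1 (hne _ h₁).2 c1
    by_cases c2 : Commute a₂ (f a₂)
    · exact hstep a₂ ha₂ (hne _ h₂).1 (hne _ h₂).2 c2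
    refine hstep _ (mul_mem ha₁ ha₂) (hne _ h₁₂).1 (hne _ h₁₂).2 ?_
    have hsw : ∀ {a b : X}, a ∈ d.O → b ∈ d.O → ¬ Commute a b → a * b = d.z * (b * a) :=
      fun {a b} ha hb h => by
        have e := (d.commO a ha b hb).resolve_left fun e => h (comm_iff.1 e)
        rw [← e]; group
    have ho₁ := d.A1_le ha₁
    have ho₂ := d.A1_le ha₂
    have p1 := hsw ho₁ (hf _ ho₁) c1
    have p2 := hsw ho₂ (hf _ ho₂) c2
    -- the two mixed commutators agree
    obtain ⟨e12, he12⟩ : ∃ e, e = a₁ * f a₂ * a₁⁻¹ * (f a₂)⁻¹ := ⟨_, rfl⟩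
    have he21 : a₂ * f a₁ * a₂⁻¹ * (f a₁)⁻¹ = e12 := by
      have hmem : e12 = 1 ∨ e12 = d.z := he12 ▸ d.commO a₁ ho₁ (f a₂) (hf _ ho₂)
      have hinv : e12⁻¹ = e12 := by
        rcases hmem with e | e <;> rw [e]
        exacts [inv_one, inv_eq_of_mul_eq_one_right d.zz]
      have hfe : f e12 = e12 := by
        rcases hmem with e | e <;> rw [e]
        · show τ * 1 * τ⁻¹ = 1; rw [mul_one, mul_inv_cancel]
        · exact hfz
      have happ : f e12 = f a₁ * f (f a₂) * (f a₁)⁻¹ * (f (f a₂))⁻¹ := by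
        rw [he12]; simp only [f]; group
      rw [hfe] at happ
      rw [← hinv, happ]
      rcases hff a₂ ho₂ with e | e <;> rw [e]
      · group
      · rw [show f a₁ * (d.z * a₂) * (f a₁)⁻¹ * (d.z * a₂)⁻¹ =
          (f a₁ * d.z) * a₂ * (f a₁)⁻¹ * a₂⁻¹ * d.z⁻¹ by group, (d.zO _ (hf _ ho₁)).eq]
        rw [show (d.z * f a₁ * a₂ * (f a₁)⁻¹ * a₂⁻¹ * d.z⁻¹)⁻¹ =
          d.z * (a₂ * f a₁ * a₂⁻¹ * (f a₁)⁻¹) * d.z⁻¹ by group]
        exact (mul_inv_eq_iff_eq_mul.2 (d.zO _ (mul_mem (mul_mem (mul_mem ho₂ (hf _ ho₁))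
          (inv_mem ho₂)) (inv_mem (hf _ ho₁)))).symm.eq).symm
    show a₁ * a₂ * f (a₁ * a₂) = f (a₁ * a₂) * (a₁ * a₂)
    rw [hfmul]
    have ee : e12 * e12 = 1 := by
      rcases he12 ▸ d.commO a₁ ho₁ (f a₂) (hf _ ho₂) with e | e <;> rw [e]
      exacts [one_mul 1, d.zz]
    have eO : e12 ∈ d.O := by
      rcases he12 ▸ d.commO a₁ ho₁ (f a₂) (hf _ ho₂) with e | e <;> rw [e]
      exacts [one_mem _, d.zmem]
    have ec : ∀ x ∈ d.O, Commute x e12 := by
      intro x hx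
      rcases he12 ▸ d.commO a₁ ho₁ (f a₂) (hf _ ho₂) with e | e <;> rw [e]
      exacts [Commute.one_right x, d.zO x hx]
    have q12 : a₁ * f a₂ = e12 * (f a₂ * a₁) := by rw [he12]; group
    have q21 : a₂ * f a₁ = e12 * (f a₁ * a₂) := by rw [← he21]; group
    calc a₁ * a₂ * (f a₁ * f a₂) = a₁ * (a₂ * f a₁) * f a₂ := by group
      _ = a₁ * e12 * f a₁ * (a₂ * f a₂) := by rw [q21]; group
      _ = e12 * (a₁ * f a₁) * (a₂ * f a₂) := by rw [(ec a₁ ho₁).eq]; group
      _ = e12 * (d.z * (f a₁ * a₁)) * (d.z * (f a₂ * a₂)) := by rw [p1, p2]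
      _ = e12 * (d.z * ((f a₁ * a₁) * d.z)) * (f a₂ * a₂) := by group
      _ = e12 * (d.z * (d.z * (f a₁ * a₁))) * (f a₂ * a₂) := by
          rw [(d.zO _ (mul_mem (hf _ ho₁) ho₁)).eq]
      _ = e12 * f a₁ * (a₁ * f a₂) * a₂ := by rw [← mul_assoc d.z, d.zz, one_mul]; group
      _ = e12 * (f a₁ * e12) * f a₂ * a₁ * a₂ := by rw [q12]; group
      _ = e12 * e12 * (f a₁ * f a₂ * (a₁ * a₂)) := by rw [(ec _ (hf _ ho₁)).eq]; group
      _ = f a₁ * f a₂ * (a₁ * a₂) := by rw [ee, one_mul]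
  -- a lift centralising the involution
  refine ⟨c, hc, hcz, by_contra fun hn => ?_⟩
  obtain ⟨o, ho, hoc⟩ : ∃ o ∈ d.O, o * f c * o⁻¹ = c := by
    rcases hfc with e | e
    · exact ⟨1, one_mem _, by rw [e, one_mul, inv_one, mul_one]⟩
    · obtain ⟨o, ho, h⟩ : ∃ o ∈ d.O, ¬ Commute c o := by
        by_contra h
        push Not at h
        exact (d.centO c hc h).elim hc1 hcz
      refine ⟨o, ho, ?_⟩
      have e' := (d.commO o ho c hc).resolve_left fun e => h (comm_iff.1 e).symm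
      rw [e, show o * (d.z * c) * o⁻¹ = (o * d.z) * c * o⁻¹ by group, (d.zO o ho).eq,
        show d.z * o * c * o⁻¹ = d.z * (o * c * o⁻¹) by group, mul_inv_eq_iff_eq_mul.1 e',
        ← mul_assoc, d.zz, one_mul]
  refine hτO ?_
  have h := d.cent_le hc hc2 hc1 hn (x := o * τ) (by
    show o * τ * c = c * (o * τ)
    conv_rhs => rw [← hoc]
    show o * τ * c = o * (τ * c * τ⁻¹) * o⁻¹ * (o * τ)
    group)
  have := mul_mem (inv_mem ho) h
  rwa [inv_mul_cancel_left] at this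

/-- Conjugates of `z` in `O` lie outside both given subgroups. -/
theorem S_notMem {s : X} (hs : s ∈ d.S) : s ∉ d.A1 ∧ s ∉ d.A2 := by
  obtain ⟨hsO, hsz, hsc⟩ := hs
  obtain ⟨g, rfl⟩ := isConj_iff.1 hsc
  obtain ⟨-, hzK, hsK, -, hcl⟩ := d.K_props hsO hsz
  have h1 : g * d.z * g⁻¹ ≠ 1 := d.conj_ne_one
  have h2 : IsConj d.z (g * d.z * g⁻¹ * d.z) := by
    rcases hcl _ (mul_mem hsK hzK) with e | e | e
    · exact absurd (by rw [eq_inv_of_mul_eq_one_left e, inv_eq_of_mul_eq_one_right d.zz]) hsz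
    · exact absurd (mul_eq_right.1 e) h1
    · exact e.2.2
  exact ⟨fun h => (d.lift1 _ h h1 hsz).elim (fun f => f hsc) fun f => f h2,
    fun h => (d.lift2 _ h h1 hsz).elim (fun f => f hsc) fun f => f h2⟩

theorem S_mem_K {g : X} (hg : g * d.z * g⁻¹ ∈ d.O) (hne : g * d.z * g⁻¹ ≠ d.z) {s : X}
    (hs : s ∈ d.S) : s ∈ d.K g := by
  classical
  obtain ⟨h8, hzK, -, hKsq, hKcl⟩ := d.K_props hg hne
  have hKA : ∀ a ∈ d.K g, a ∈ d.A2 → a = 1 ∨ a = d.z := fun a ha ha2 => by
    rcases hKcl a ha with e | e | e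
    · exact Or.inl e
    · exact Or.inr e
    · exact absurd ha2 (d.S_notMem e).2
  have hKcard : Nat.card (d.K g) = 8 := by
    refine le_antisymm (d.card_abelian inf_le_left fun a ha b hb => ?_) h8
    exact CfsgLib.J4Type67.comm_of_sq hKsq ha hb
  have hsO := hs.1
  have hs2 : s * s = 1 := by
    obtain ⟨h, rfl⟩ := isConj_iff.1 hs.2.2; exact d.conj_sq
  obtain ⟨a, ha, b, hb, rfl⟩ := d.exists_mul d.A1_le d.A2_le d.A1_z d.A1_card d.A2_card d.disj hsO
  have hai : a⁻¹ = a := inv_eq_of_mul_eq_one_right (d.A1_sq a ha)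
  have hbi : b⁻¹ = b := inv_eq_of_mul_eq_one_right (d.A2_sq b hb)
  have hab : Commute a b := by
    refine comm_iff.1 ?_
    rw [hai, hbi, mul_assoc (a * b)]; exact hs2
  obtain ⟨k, hk, c, hc, hak⟩ := d.exists_mul (A := d.K g) inf_le_left d.A2_le hzK hKcard
    d.A2_card hKA (d.A1_le ha)
  have haZ : a ≠ 1 ∧ a ≠ d.z := by
    constructor <;> rintro rfl
    · exact (d.S_notMem hs).2 (by rw [one_mul]; exact hb)
    · exact (d.S_notMem hs).2 (mul_mem d.A2_z hb)
  -- the component in `A2` commutes with `a`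
  have hac : Commute a c := by
    have hk2 := hKsq k hk
    have hci : c⁻¹ = c := inv_eq_of_mul_eq_one_right (d.A2_sq c hc)
    have hkeq : k = a * c := by rw [hak, mul_assoc, d.A2_sq c hc, mul_one]
    refine comm_iff.1 ?_
    rw [hai, hci, mul_assoc (a * c), ← hkeq]; exact hk2
  have hcb : c ∈ ({1, d.z, b, b * d.z} : Finset X) := by
    by_contra h
    simp only [Finset.mem_insert, Finset.mem_singleton, not_or] at h
    obtain ⟨h1, h2, h3, h4⟩ := h
    -- otherwise `a` centralises `A1` and `A2`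
    have hbz : b ≠ 1 ∧ b ≠ d.z := by
      constructor <;> rintro rfl
      · exact (d.S_notMem hs).1 (by rw [mul_one]; exact ha)
      · exact (d.S_notMem hs).1 (mul_mem ha d.A1_z)
    have hsub : ({1, d.z, b, b * d.z, c} : Finset X) ⊆
        (Set.toFinite ((d.A2 ⊓ Subgroup.centralizer ({a} : Set X) : Subgroup X) : Set X)).toFinset
        := by
      intro x hx
      rw [Set.Finite.mem_toFinset]
      simp only [Finset.mem_insert, Finset.mem_singleton] at hx
      refine ⟨?_, Subgroup.mem_centralizer_singleton_iff.2 ?_⟩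
      · rcases hx with rfl | rfl | rfl | rfl | rfl
        exacts [one_mem _, d.A2_z, hb, mul_mem hb d.A2_z, hc]
      · rcases hx with rfl | rfl | rfl | rfl | rfl
        exacts [(Commute.one_left a).eq, (d.zO a (d.A1_le ha)).eq.symm, hab.eq.symm,
          (hab.mul_right (d.zO a (d.A1_le ha))).eq.symm, hac.eq.symm]
    have h5 : 5 ≤ Nat.card ↥(d.A2 ⊓ Subgroup.centralizer ({a} : Set X)) := by
      have := Finset.card_le_card hsub
      rw [← Set.ncard_eq_toFinset_card _, ← Nat.card_coe_set_eq] at this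
      refine le_trans (le_of_eq ?_) this
      rw [Finset.card_insert_of_notMem, Finset.card_insert_of_notMem,
        Finset.card_insert_of_notMem, Finset.card_insert_of_notMem, Finset.card_singleton]
      · simp only [Finset.mem_singleton]; exact fun e => h4 e.symm
      · simp only [Finset.mem_insert, Finset.mem_singleton, not_or]
        exact ⟨fun e => d.zne (mul_eq_left.1 e.symm), fun e => h3 e.symm⟩
      · simp only [Finset.mem_insert, Finset.mem_singleton, not_or]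
        exact ⟨fun e => hbz.2 e.symm, fun e => hbz.1 (mul_eq_right.1 e.symm),
          fun e => h2 e.symm⟩
      · simp only [Finset.mem_insert, Finset.mem_singleton, not_or]
        exact ⟨fun e => d.zne e.symm, fun e => hbz.1 e.symm,
          fun e => hbz.2 (by rw [← inv_eq_of_mul_eq_one_right d.zz]
                             exact eq_inv_of_mul_eq_one_left e.symm),
          fun e => h1 e.symm⟩
    obtain ⟨j, hj⟩ : ∃ j, Nat.card ↥(d.A2 ⊓ Subgroup.centralizer ({a} : Set X)) = 2 ^ j :=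
      haveI : Fact (Nat.Prime 2) := ⟨Nat.prime_two⟩
      (IsPGroup.iff_card (p := 2)).1 (fun x => ⟨1, Subtype.ext (by
        simpa [pow_two] using d.A2_sq _ x.2.1)⟩)
    have h8' : Nat.card ↥(d.A2 ⊓ Subgroup.centralizer ({a} : Set X)) ≤ 8 :=
      (Subgroup.card_le_of_le inf_le_left).trans_eq d.A2_card
    have hall : d.A2 ⊓ Subgroup.centralizer ({a} : Set X) = d.A2 := by
      refine Subgroup.eq_of_le_of_card_ge inf_le_left ?_
      rw [d.A2_card]
      rw [hj] at h5 h8' ⊢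
      have : 2 ^ 2 < 2 ^ j := by omega
      have := (Nat.pow_lt_pow_iff_right (by norm_num : 1 < 2)).1 this
      exact le_trans (by norm_num) (Nat.pow_le_pow_right (by norm_num : 0 < 2) this)
    refine (d.centO a (d.A1_le ha) fun y hy => ?_).elim haZ.1 haZ.2
    obtain ⟨u, hu, v, hv, rfl⟩ := d.exists_mul d.A1_le d.A2_le d.A1_z d.A1_card d.A2_card d.disj hy
    refine (show Commute a u from CfsgLib.J4Type67.comm_of_sq d.A1_sq ha hu).mul_right ?_
    exact (Subgroup.mem_centralizer_singleton_iff.1 (hall.ge hv).2).symm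
  have hab' : a * b = k * (c * b) := by rw [hak]; group
  rw [hab']
  simp only [Finset.mem_insert, Finset.mem_singleton] at hcb
  rcases hcb with rfl | rfl | hc3 | hc4
  · exfalso
    rw [mul_one] at hak
    rcases hKcl k hk with e | e | e
    · exact haZ.1 (hak.trans e)
    · exact haZ.2 (hak.trans e)
    · exact (d.S_notMem e).1 (hak ▸ ha)
  · exfalso
    rcases hKcl _ (mul_mem hk hzK) with e | e | e <;> rw [← hak] at e
    · exact haZ.1 e
    · exact haZ.2 e
    · exact (d.S_notMem e).1 ha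
  · rw [hc3, d.A2_sq b hb, mul_one]; exact hk
  · rw [hc4, (d.zO b (d.A2_le hb)).eq, mul_assoc, d.A2_sq b hb, mul_one]
    exact mul_mem hk hzK

/-- The elementary abelian subgroup of order eight. -/
theorem exists_eight : ∃ E : Subgroup X, E ≤ d.O ∧ d.z ∈ E ∧ Nat.card E = 8 ∧
    (∀ e ∈ E, e * e = 1) ∧ ∀ x, x ∈ E ↔ x = 1 ∨ (x ∈ d.O ∧ IsConj d.z x) := by
  obtain ⟨s, hsO, hsz, hsc⟩ := d.S_nonempty
  obtain ⟨g, rfl⟩ := isConj_iff.1 hsc
  obtain ⟨h8, hzK, -, hKsq, hKcl⟩ := d.K_props hsO hsz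
  refine ⟨d.K g, inf_le_left, hzK, le_antisymm (d.card_abelian inf_le_left fun a ha b hb =>
    CfsgLib.J4Type67.comm_of_sq hKsq ha hb) h8, hKsq, fun x => ⟨fun hx => ?_, ?_⟩⟩
  · rcases hKcl x hx with e | e | e
    · exact Or.inl e
    · exact Or.inr ⟨e ▸ d.zmem, e ▸ IsConj.refl _⟩
    · exact Or.inr ⟨e.1, e.2.2⟩
  · rintro (rfl | ⟨hxO, hxc⟩)
    · exact one_mem _
    · by_cases hxz : x = d.z
      · exact hxz ▸ hzK
      · exact d.S_mem_K hsO hsz ⟨hxO, hxz, hxc⟩

section eight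

variable {E : Subgroup X} (hEO : E ≤ d.O) (hzE : d.z ∈ E) (hE8 : Nat.card E = 8)
  (hEsq : ∀ e ∈ E, e * e = 1) (hE : ∀ x, x ∈ E ↔ x = 1 ∨ (x ∈ d.O ∧ IsConj d.z x))

include hEO hzE hE8 hEsq hE

/-- A conjugating element carrying `z` into `E` normalises `E`. -/
theorem normalizes {g : X} (hg : g * d.z * g⁻¹ ∈ E) {x : X} :
    x ∈ E ↔ g⁻¹ * x * g ∈ E := by
  have hle : E ≤ E.comap (MulAut.conj g⁻¹).toMonoidHom := by
    intro y hy
    show g⁻¹ * y * g⁻¹⁻¹ ∈ E
    rw [inv_inv, hE]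
    rcases (hE y).1 hy with rfl | ⟨hyO, hyc⟩
    · left; group
    refine Or.inr ⟨?_, hyc.trans (isConj_iff.2 ⟨g⁻¹, by group⟩)⟩
    by_cases hz : g * d.z * g⁻¹ = d.z
    · have hc : Commute g d.z := mul_inv_eq_iff_eq_mul.1 hz
      simpa using d.normalO g⁻¹ hc.inv_left y hyO
    · have hgO := hEO hg
      by_cases hyz : y = d.z
      · rw [hyz]; exact d.symm g hgO
      · exact (d.mem_K.1 (d.S_mem_K hgO hz ⟨hyO, hyz, hyc⟩)).2
  have heq : E.comap (MulAut.conj g⁻¹).toMonoidHom = E :=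
    (Subgroup.eq_of_le_of_card_ge hle (by
      refine Nat.card_le_card_of_injective
        (fun x => (⟨(MulAut.conj g⁻¹) x.1, x.2⟩ : E)) fun a b h => Subtype.ext ?_
      exact (MulAut.conj g⁻¹).injective (congrArg Subtype.val h))).symm
  conv_lhs => rw [← heq]
  simp

/-- Every conjugate of `z` commuting with `z` lies in `E`. -/
theorem conj_commute_mem {g : X} (hg : Commute (g * d.z * g⁻¹) d.z) : g * d.z * g⁻¹ ∈ E := by
  set v := g * d.z * g⁻¹ with hv
  by_cases hvO : v ∈ d.O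
  · exact (hE v).2 (Or.inr ⟨hvO, isConj_iff.2 ⟨g, rfl⟩⟩)
  exfalso
  -- a fixed element of `E` outside the powers of `z`
  have hnorm : ∀ x ∈ E, v * x * v⁻¹ ∈ E := by
    intro x hx
    have := (d.normalizes hEO hzE hE8 hEsq hE (g := v⁻¹) (by
      rw [inv_inv, hg.inv_left.eq, mul_assoc, inv_mul_cancel, mul_one]; exact hzE)).1 hx
    rwa [inv_inv] at this
  let δ : E →* X :=
    { toFun := fun e => v * e * v⁻¹ * e
      map_one' := by simp
      map_mul' := fun a b => by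
        show v * (a * b : X) * v⁻¹ * (a * b : X) = v * a * v⁻¹ * a * (v * b * v⁻¹ * b)
        have e : Commute (a : X) (v * b * v⁻¹) :=
          CfsgLib.J4Type67.comm_of_sq hEsq a.2 (hnorm b b.2)
        rw [show v * (a * b : X) * v⁻¹ * (a * b : X) = v * a * v⁻¹ * ((v * b * v⁻¹) * a) * b
          by group, ← e.eq]
        group }
  have hker : ∀ e : E, e ∈ δ.ker ↔ Commute v e := fun e => by
    rw [MonoidHom.mem_ker]
    show v * e * v⁻¹ * e = 1 ↔ _
    rw [mul_eq_one_iff_eq_inv, inv_eq_of_mul_eq_one_right (hEsq e e.2), mul_inv_eq_iff_eq_mul]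
    rfl
  have hrange : Nat.card δ.range ≤ Nat.card δ.ker := by
    have hle : δ.range ≤ δ.ker.map E.subtype := by
      rintro _ ⟨e, rfl⟩
      refine ⟨⟨δ e, mul_mem (hnorm e e.2) e.2⟩, (hker _).2 ?_, rfl⟩
      show v * (v * e * v⁻¹ * e) = v * e * v⁻¹ * e * v
      have hvv : v⁻¹ = v := inv_eq_of_mul_eq_one_right d.conj_sq
      have e2 : Commute (e : X) (v * e * v⁻¹) :=
        CfsgLib.J4Type67.comm_of_sq hEsq e.2 (hnorm e e.2)
      have hvsq : v * v = 1 := d.conj_sq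
      have e3 := e2.eq
      rw [hvv] at e3 ⊢
      calc v * (v * e * v * e) = v * v * (e * v * e) := by group
        _ = e * v * e * (v * v) := by rw [hvsq, one_mul, mul_one]
        _ = e * (v * e * v) * v := by group
        _ = v * e * v * e * v := by rw [e3]
    exact (Subgroup.card_le_of_le hle).trans_eq
      (Subgroup.card_map_of_injective E.subtype_injective)
  have hmul := Subgroup.card_mul_index δ.ker
  rw [Subgroup.index_ker, hE8] at hmul
  obtain ⟨a, haE, hva, haZ⟩ : ∃ a ∈ E, Commute v a ∧ a ∉ Subgroup.zpowers d.z := by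
    by_contra hno
    push Not at hno
    have hk : Nat.card δ.ker ≤ 2 := by
      rw [← d.card_Z, ← Subgroup.card_map_of_injective E.subtype_injective]
      refine Subgroup.card_le_of_le ?_
      rintro _ ⟨e, he, rfl⟩
      exact hno e e.2 ((hker e).1 he)
    have := Nat.mul_le_mul hk (hrange.trans hk)
    omega
  have hazE : a * d.z ∈ E := mul_mem haE hzE
  have hconv : ∀ x, x ∈ E → Commute v x → Commute (g⁻¹ * x * g) d.z := fun x _ hx => by
    show g⁻¹ * x * g * d.z = d.z * (g⁻¹ * x * g)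
    calc g⁻¹ * x * g * d.z = g⁻¹ * (x * v) * g := by rw [hv]; group
      _ = g⁻¹ * (v * x) * g := by rw [hx.eq]
      _ = d.z * (g⁻¹ * x * g) := by rw [hv]; group
  have hsqc : ∀ x ∈ E, g⁻¹ * x * g * (g⁻¹ * x * g) = 1 := fun x hx => by
    rw [show g⁻¹ * x * g * (g⁻¹ * x * g) = g⁻¹ * (x * x) * g by group, hEsq x hx]
    group
  have key : ∀ x ∈ E, x ≠ 1 → g⁻¹ * x * g ∈ d.O → False := by
    intro x hx hx1 hxO
    obtain ⟨hxO', hxc⟩ := ((hE x).1 hx).resolve_left hx1
    obtain ⟨h, hh⟩ := isConj_iff.1 hxc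
    have hE' : (g⁻¹ * h) * d.z * (g⁻¹ * h)⁻¹ ∈ E := by
      rw [show g⁻¹ * h * d.z * (g⁻¹ * h)⁻¹ = g⁻¹ * (h * d.z * h⁻¹) * g by group, hh]
      exact (hE _).2 (Or.inr ⟨hxO, hxc.trans (isConj_iff.2 ⟨g⁻¹, by group⟩)⟩)
    have h1 := (d.normalizes hEO hzE hE8 hEsq hE hE' (x := d.z)).1 hzE
    have h2 := (d.normalizes hEO hzE hE8 hEsq hE (g := h) (hh.symm ▸ hx) (x := v)).2 (by
      rwa [hv, show h⁻¹ * (g * d.z * g⁻¹) * h = (g⁻¹ * h)⁻¹ * d.z * (g⁻¹ * h) by group])
    exact hvO (hEO h2)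
  have hza : Commute v d.z := hg
  by_cases h1 : g⁻¹ * a * g ∈ d.inn
  · exact key a haE (fun e => haZ (e ▸ one_mem _)) (d.inn_invol _ h1 (hsqc a haE))
  by_cases h2 : g⁻¹ * (a * d.z) * g ∈ d.inn
  · refine key _ hazE (fun e => haZ ?_) (d.inn_invol _ h2 (hsqc _ hazE))
    rw [eq_inv_of_mul_eq_one_left e]; exact inv_mem (Subgroup.mem_zpowers _)
  have h3 := d.inn_mul _ _ (hconv a haE hva) (hconv _ hazE (hva.mul_right hza)) h1 h2
  rw [show g⁻¹ * a * g * (g⁻¹ * (a * d.z) * g) = g⁻¹ * (a * a * d.z) * g by group,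
    hEsq a haE, one_mul] at h3
  have hzO := d.inn_invol _ h3 (hsqc d.z hzE)
  have := d.symm g⁻¹ (by rwa [inv_inv])
  rw [inv_inv] at this
  exact hvO this

/-- All conjugates of `z` lie in `E`. -/
theorem conj_mem (g : X) : g * d.z * g⁻¹ ∈ E := by
  obtain ⟨b, hb, hb2, hb1, hbn⟩ := d.exists_notConj
  obtain ⟨w, hw2, hw1, hvw, hwb⟩ := exists_between (d.conj_sq (g := g)) hb2
    (fun h => hbn ((isConj_iff.2 ⟨g, rfl⟩ : IsConj d.z _).trans h))
  have hwO : w ∈ d.O := d.cent_le hb hb2 hb1 hbn hwb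
  by_cases hwz : IsConj d.z w
  · have hwE : w ∈ E := (hE w).2 (Or.inr ⟨hwO, hwz⟩)
    obtain ⟨h, hh⟩ := isConj_iff.1 hwz
    have hc : Commute ((h⁻¹ * g) * d.z * (h⁻¹ * g)⁻¹) d.z := by
      show (h⁻¹ * g) * d.z * (h⁻¹ * g)⁻¹ * d.z = d.z * ((h⁻¹ * g) * d.z * (h⁻¹ * g)⁻¹)
      calc (h⁻¹ * g) * d.z * (h⁻¹ * g)⁻¹ * d.z = h⁻¹ * (g * d.z * g⁻¹ * w) * h := by
            rw [← hh]; group
        _ = h⁻¹ * (w * (g * d.z * g⁻¹)) * h := by rw [hvw.eq]
        _ = _ := by rw [← hh]; group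
    have hm := d.conj_commute_mem hEO hzE hE8 hEsq hE hc
    refine (d.normalizes hEO hzE hE8 hEsq hE (g := h) (hh.symm ▸ hwE)).2 ?_
    rwa [show h⁻¹ * (g * d.z * g⁻¹) * h = h⁻¹ * g * d.z * (h⁻¹ * g)⁻¹ by group]
  · exact (hE _).2 (Or.inr ⟨d.cent_le hwO hw2 hw1 hwz hvw, isConj_iff.2 ⟨g, rfl⟩⟩)

theorem normal_eight : E.Normal := by
  refine ⟨fun x hx g => ?_⟩
  have h := d.conj_mem hEO hzE hE8 hEsq hE g
  refine (d.normalizes hEO hzE hE8 hEsq hE h).2 ?_
  rwa [show g⁻¹ * (g * x * g⁻¹) * g = x by group]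

theorem card_eq : Nat.card X = 1344 := by
  have hset : conjugatesOf d.z = (E : Set X) \ {1} := by
    ext x
    constructor
    · intro hx
      obtain ⟨g, rfl⟩ := isConj_iff.1 hx
      exact ⟨d.conj_mem hEO hzE hE8 hEsq hE g, d.conj_ne_one⟩
    · rintro ⟨hx, hx1⟩
      exact (((hE x).1 hx).resolve_left hx1).2
  have h7 : (conjugatesOf d.z).ncard = 7 := by
    rw [hset, Set.ncard_diff_singleton_of_mem (one_mem E), ← Nat.card_coe_set_eq]
    rw [show Nat.card (E : Set X) = 8 from hE8]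
  have h := Subgroup.card_mul_index (Subgroup.centralizer ({d.z} : Set X))
  have hidx : (Subgroup.centralizer ({d.z} : Set X)).index = 7 := by
    rw [← h7, index_centralizer_eq]
  rw [hidx, d.cardC] at h
  omega

theorem centralizer_eight : Subgroup.centralizer (E : Set X) = E := by
  haveI := d.normal_eight hEO hzE hE8 hEsq hE
  set T := Subgroup.centralizer (E : Set X) with hT
  have hTn : T.Normal := inferInstance
  have hET : E ≤ T := fun x hx => Subgroup.mem_centralizer_iff.2 fun y hy =>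
    CfsgLib.J4Type67.comm_of_sq hEsq hy hx
  have hTc : ∀ t ∈ T, ∀ e ∈ E, Commute t e := fun t ht e he =>
    (Subgroup.mem_centralizer_iff.1 ht e he).symm
  have hTOE : T ⊓ d.O = E := by
    refine le_antisymm (fun x hx => ?_) (le_inf hET hEO)
    by_contra hxE
    have hD := d.card_abelian (D := E ⊔ Subgroup.zpowers x)
      (sup_le hEO (Subgroup.zpowers_le.2 hx.2)) (by
      have h1 : E ⊔ Subgroup.zpowers x ≤
          Subgroup.centralizer ((E ⊔ Subgroup.zpowers x : Subgroup X) : Set X) := by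
        refine sup_le ?_ ?_ <;> rw [Subgroup.le_centralizer_iff] <;> refine sup_le ?_ ?_
        · exact hET
        · exact Subgroup.zpowers_le.2 hx.1
        · exact Subgroup.le_centralizer_iff.1 (Subgroup.zpowers_le.2 hx.1)
        · exact Subgroup.zpowers_le.2 (Subgroup.mem_centralizer_iff.2 fun y hy => by
            obtain ⟨i, rfl⟩ := hy; exact ((Commute.refl x).zpow_left i).eq)
      exact fun a ha b hb => (Subgroup.mem_centralizer_iff.1 (h1 hb) a ha))
    have heq : E = E ⊔ Subgroup.zpowers x :=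
      Subgroup.eq_of_le_of_card_ge le_sup_left (by rw [hE8]; exact hD)
    exact hxE (heq ▸ Subgroup.mem_sup_right (Subgroup.mem_zpowers x))
  obtain ⟨b, hb, hb2, hb1, hbn⟩ := d.exists_notConj
  have hbE : b ∉ E := fun h => hbn (((hE b).1 h).resolve_left hb1).2
  -- elements of `T` act on `O / E` trivially
  have hcomm : ∀ t ∈ T, t * b * t⁻¹ * b⁻¹ ∈ E := fun t ht => by
    rw [← hTOE]
    refine Subgroup.mem_inf.2 ⟨?_, mul_mem (d.normalO t (hTc t ht d.z hzE) b hb) (inv_mem hb)⟩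
    rw [show t * b * t⁻¹ * b⁻¹ = t * (b * t⁻¹ * b⁻¹) by group]
    exact mul_mem ht (hTn.conj_mem _ (inv_mem ht) b)
  -- `T` is a 2-group
  let δ : T → E := fun t => ⟨t * b * t⁻¹ * b⁻¹, hcomm t t.2⟩
  have hfib : ∀ s t : T, δ s = δ t → (t : X)⁻¹ * s ∈ T ⊓ d.O := by
    intro s t e
    have e' : (s : X) * b * (s : X)⁻¹ = t * b * (t : X)⁻¹ :=
      mul_right_cancel (congrArg Subtype.val e)
    refine Subgroup.mem_inf.2 ⟨mul_mem (inv_mem t.2) s.2, d.cent_le hb hb2 hb1 hbn ?_⟩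
    show (t : X)⁻¹ * s * b = b * ((t : X)⁻¹ * s)
    calc (t : X)⁻¹ * s * b = (t : X)⁻¹ * (s * b * (s : X)⁻¹) * s := by group
      _ = b * ((t : X)⁻¹ * s) := by rw [e']; group
  have hbT : b ∉ T := fun h => hbE (hTOE.le ⟨h, hb⟩)
  have hcardT : Nat.card T ≤ 64 := by
    classical
    haveI := Fintype.ofFinite T
    haveI := Fintype.ofFinite E
    have := Finset.card_le_mul_card_image (f := δ) (s := Finset.univ) 8 fun e _ => by
      rcases (Finset.univ.filter fun t => δ t = e).eq_empty_or_nonempty with h0 | ⟨t, ht⟩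
      · rw [h0]; simp
      simp only [Finset.mem_filter, Finset.mem_univ, true_and] at ht
      refine le_of_le_of_eq ?_ ((congrArg (fun S : Subgroup X => Nat.card S) hTOE).trans hE8)
      rw [← Nat.card_eq_finsetCard]
      exact Nat.card_le_card_of_injective
        (fun s => (⟨(t : X)⁻¹ * (s : T), hfib _ _ ((Finset.mem_filter.1 s.2).2.trans ht.symm)⟩ :
          ↥(T ⊓ d.O)))
        fun s s' h => Subtype.ext (Subtype.ext (mul_left_cancel (congrArg Subtype.val h)))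
    rw [Nat.card_eq_fintype_card, ← Finset.card_univ]
    refine this.trans ((Nat.mul_le_mul_left 8 (Finset.card_le_univ _)).trans ?_)
    rw [← Nat.card_eq_fintype_card, hE8]
  -- an element outside `E` gives a small invariant coset
  by_contra hne
  obtain ⟨x, hxT, hxE⟩ := SetLike.exists_of_lt (lt_of_le_of_ne hET (fun h => hne h.symm))
  have hxO : x ∉ d.O := fun h => hxE (hTOE.le ⟨hxT, h⟩)
  have hTle : T ≤ Subgroup.centralizer ({d.z} : Set X) := fun t ht =>
    Subgroup.mem_centralizer_singleton_iff.2 (hTc t ht d.z hzE).eq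
  obtain ⟨m, hm⟩ := Subgroup.card_dvd_of_le hET
  rw [hE8] at hm
  have hsq : ∀ t ∈ T, t * t ∈ E := fun t ht => by
    have := hfib ⟨t * t, mul_mem ht ht⟩ 1 (Subtype.ext ?_)
    · rw [hTOE] at this; simpa using this
    show t * t * b * (t * t)⁻¹ * b⁻¹ = 1 * b * 1⁻¹ * b⁻¹
    obtain ⟨c, hcE, hcd⟩ : ∃ c ∈ E, t * b * t⁻¹ = c * b :=
      ⟨_, hcomm t ht, (inv_mul_cancel_right _ _).symm⟩
    have key : t * t * b * (t * t)⁻¹ = b :=
      calc t * t * b * (t * t)⁻¹ = t * (t * b * t⁻¹) * t⁻¹ := by group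
        _ = t * c * t⁻¹ * (t * b * t⁻¹) := by
          rw [show t * (t * b * t⁻¹) * t⁻¹ = t * (c * b) * t⁻¹ by rw [hcd]]; group
        _ = c * (c * b) := by rw [(hTc t ht c hcE).eq, mul_inv_cancel_right, hcd]
        _ = b := by rw [← mul_assoc, hEsq c hcE, one_mul]
    rw [key]
    group
  have hT2 : IsPGroup 2 T := fun t => ⟨2, Subtype.ext (by
    show (t : X) ^ (2 ^ 2) = 1
    rw [show (t : X) ^ (2 ^ 2) = t * t * (t * t) by
      rw [show (2:ℕ) ^ 2 = 2 + 2 by norm_num, pow_add, pow_two]]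
    exact hEsq _ (hsq t t.2))⟩
  haveI : Fact (Nat.Prime 2) := ⟨Nat.prime_two⟩
  obtain ⟨j, hj⟩ := IsPGroup.iff_card.1 hT2
  have hTO : Nat.card T * 32 ≤ 8 * 64 := by
    have hO2 : IsPGroup 2 d.O := IsPGroup.of_card (n := 5) (by rw [d.cardO]; norm_num)
    have hTN : T ≤ Subgroup.normalizer (d.O : Set X) := fun t ht => by
      rw [Subgroup.mem_normalizer_iff]
      refine fun y => ⟨fun hy => d.normalO t (hTc t ht d.z hzE) y hy, fun hy => ?_⟩
      have := d.normalO t⁻¹ (hTc t ht d.z hzE).inv_left _ hy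
      simpa [mul_assoc] using this
    obtain ⟨k, hk⟩ := IsPGroup.iff_card.1 (hT2.to_sup_of_normal_right' hO2 hTN)
    have hle : T ⊔ d.O ≤ Subgroup.centralizer ({d.z} : Set X) := sup_le hTle fun y hy =>
      Subgroup.mem_centralizer_singleton_iff.2 (d.zO y hy).eq
    have h64 : Nat.card ↥(T ⊔ d.O) ≤ 64 := by
      have h := Subgroup.card_dvd_of_le hle
      rw [hk, d.cardC, show (192 : ℕ) = 2 ^ 6 * 3 by norm_num] at h
      rw [hk]
      exact Nat.le_of_dvd (by norm_num)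
        ((Nat.Coprime.pow_left k (by norm_num : Nat.Coprime 2 3)).dvd_of_dvd_mul_right h)
    have h := mul_card_le (A := T) (B := d.O) (C := T ⊔ d.O) le_sup_left le_sup_right
    rw [hTOE, hE8, d.cardO] at h
    exact h.trans (Nat.mul_le_mul_left 8 h64)
  have hj4 : Nat.card T = 16 := by
    have hlt : Nat.card E < Nat.card T := by
      by_contra h
      exact hne (Subgroup.eq_of_le_of_card_ge hET (not_lt.1 h)).symm
    rw [hE8, hj] at hlt
    rw [hj] at hTO ⊢
    have h3 : 2 ^ 3 < 2 ^ j := by norm_num; exact hlt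
    have h5 : 2 ^ j < 2 ^ 6 := by norm_num; omega
    have := (Nat.pow_lt_pow_iff_right (by norm_num : 1 < 2)).1 h3
    have := (Nat.pow_lt_pow_iff_right (by norm_num : 1 < 2)).1 h5
    interval_cases j <;> first | rfl | omega
  have hcoset : ∀ g, x⁻¹ * (g * x * g⁻¹) ∈ E := by
    intro g
    have hgT : g * x * g⁻¹ ∈ T := hTn.conj_mem x hxT g
    have hgE : g * x * g⁻¹ ∉ E := fun h => hxE (by
      have := (inferInstance : E.Normal).conj_mem _ h g⁻¹
      simpa [mul_assoc] using this)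
    have hidx : (E.subgroupOf T).index = 2 := by
      have h := Subgroup.card_mul_index (E.subgroupOf T)
      rw [Nat.card_congr (Subgroup.subgroupOfEquivOfLe hET).toEquiv, hE8, hj4] at h
      omega
    have := (Subgroup.mul_mem_iff_of_index_two hidx
      (a := ⟨x, hxT⟩⁻¹) (b := ⟨g * x * g⁻¹, hgT⟩)).2
      (by simp [Subgroup.mem_subgroupOf, hxE, hgE])
    exact this
  have hconst : ∀ g, g * (x * x) * g⁻¹ = x * x := by
    intro g
    have he := hcoset g
    set e := x⁻¹ * (g * x * g⁻¹) with hedef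
    rw [show g * (x * x) * g⁻¹ = (g * x * g⁻¹) * (g * x * g⁻¹) by group,
      show g * x * g⁻¹ = x * e by rw [hedef]; group,
      show x * e * (x * e) = x * (e * x) * e by group, ← (hTc x hxT e he).eq,
      show x * (x * e) * e = x * x * (e * e) by group, hEsq e he, mul_one]
  by_cases hx2 : x * x = 1
  · have hxn : ¬ IsConj d.z x := fun h => by
      obtain ⟨g, rfl⟩ := isConj_iff.1 h
      exact hxE (d.conj_mem hEO hzE hE8 hEsq hE g)
    have hc := d.small x hx2 (fun h => hxE (h ▸ one_mem _)) hxn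
    have h := Subgroup.card_mul_index (Subgroup.centralizer ({x} : Set X))
    rw [d.card_eq hEO hzE hE8 hEsq hE] at h
    have hle : (Subgroup.centralizer ({x} : Set X)).index ≤ 8 := by
      rw [index_centralizer_eq]
      calc _ ≤ ((fun e => x * e) '' (E : Set X)).ncard := by
            refine Set.ncard_le_ncard ?_
            intro y hy
            obtain ⟨g, rfl⟩ := isConj_iff.1 hy
            exact ⟨x⁻¹ * (g * x * g⁻¹), hcoset g, mul_inv_cancel_left _ _⟩
        _ ≤ (E : Set X).ncard := Set.ncard_image_le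
        _ = 8 := by rw [← Nat.card_coe_set_eq]; exact hE8
    have := Nat.mul_le_mul hc hle
    omega
  · obtain ⟨-, hc⟩ := ((hE _).1 (hsq x hxT)).resolve_left hx2
    obtain ⟨g, hg⟩ := isConj_iff.1 hc
    obtain ⟨u, hu⟩ := d.S_nonempty
    obtain ⟨h, rfl⟩ := isConj_iff.1 hu.2.2
    refine hu.2.1 ?_
    have hz : x * x = d.z := by rw [← hconst g⁻¹, ← hg]; group
    rw [← hz, hconst h, hz]

end eight

end Data

end CfsgLib.J4Five67
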