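import Cfsg.Agent.J4Type67.Module

/-!
The two hexad subgroups of `M22` normalised by an element of order five, and the fixed vectors of
its lift.
-/

set_option autoImplicit false
set_option maxRecDepth 100000

namespace CfsgLib.J4Five67

open CfsgLib.J4Type67 Cfsg CfsgLib.Golay CfsgLib.Mathieu CfsgLib.Mathieu.Code

attribute [local irreducible] enc

/-- An element of order four carrying one of the two subgroups to the other. -/
def pairMove : ℕ × ℕ := (969031747854190543087374918325244480, 969016483280118704516257649439131040)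

/-- A conjugate of the element of order five under the inverse. -/
def pairFive : ℕ × ℕ := (984637636036087846595888524935438752, 984106531907099977632630064348117280)

/-- Generators as words in the subgroup and its conjugate. -/
def pairWords : List (List ℕ) := [[0, 7, 0, 7], [0, 3, 4, 5, 6, 0, 3], [1, 2, 7, 1, 2],
  [4, 5, 7, 1, 2, 4, 5, 7], [1, 2, 4, 6, 1, 2], [3, 7, 3, 7, 3]]

theorem pair_data : elOK pairMove = true ∧ normCheck' hexBasis pairFive = true ∧
    genCheck hexBasis pairMove pairWords = true ∧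
    cmpC (cmpC pairMove.1 pairFive.1) pairMove.2 = hexFive.1 := by
  decide +kernel

theorem five_two_hex : ∃ m : M, hex ⊔ conjS m hex = ⊤ ∧
    conjS (el hexFive) (conjS m hex) = conjS m hex := by
  obtain ⟨h1, h2, h3, h4⟩ := pair_data
  obtain ⟨hok, -⟩ := hex_normal_data
  have h2' : elOK pairFive = true := by simp only [normCheck', Bool.and_eq_true] at h2; exact h2.1
  have e : el pairMove * el pairFive * (el pairMove)⁻¹ = el hexFive :=
    eq_el hok ((cm_conj_el h1 h2').trans h4)
  have hn : conjS (el pairFive) hex = hex := conjS_eq basis_ok.1 h2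
  refine ⟨el pairMove, sup_conj_eq_top basis_ok.1 basis_ok.2.1 h3, ?_⟩
  ext x
  rw [mem_conjS, mem_conjS, mem_conjS]
  conv_rhs => rw [← hn, mem_conjS]
  rw [← e]
  simp [mul_assoc]

end CfsgLib.J4Five67

namespace CfsgLib.J4Type67.Rep

open scoped Pointwise commutatorElement

universe u v

variable {X : Type u} {W : Type v} [Group X] [Group W] (r : Rep X W)

/-- The fixed spaces of two generating subgroups meet trivially. -/
theorem F_inf_eq_bot {A B : Subgroup M} (hA : ∀ a ∈ A, a * a = 1) (hB : ∀ a ∈ B, a * a = 1)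
    (hg : A ⊔ B = ⊤) : r.F A ⊓ r.F B = ⊥ := by
  rw [eq_bot_iff]
  intro w hw
  let S : Subgroup X :=
    { carrier := {x | r.act x w = w}
      one_mem' := r.act_one w
      mul_mem' := fun {a b} ha hb => by
        show r.act (a * b) w = w
        rw [r.act_mul]
        rw [Set.mem_setOf_eq] at ha hb
        rw [hb, ha]
      inv_mem' := fun {a} ha => by
        show r.act a⁻¹ w = w
        rw [Set.mem_setOf_eq] at ha
        conv_lhs => rw [← ha]
        exact r.act_inv_act a w }
  have htop : A ⊔ B ≤ S.map r.proj := by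
    refine sup_le (fun a ha => ?_) (fun a ha => ?_)
    · obtain ⟨x, hx, hx2⟩ := r.exists_lift_two hA ha
      exact ⟨x, hw.1 x ⟨hx ▸ ha, hx2⟩, hx⟩
    · obtain ⟨x, hx, hx2⟩ := r.exists_lift_two hB ha
      exact ⟨x, hw.2 x ⟨hx ▸ ha, hx2⟩, hx⟩
  rw [hg] at htop
  have hS : (⊤ : Subgroup X) ≤ S ⊔ Subgroup.zpowers r.p := by
    intro x _
    obtain ⟨y, hy, e⟩ := htop (Subgroup.mem_top (r.proj x))
    obtain ⟨i, hi⟩ := r.exists_pow (x := y⁻¹ * x) (by rw [map_mul, map_inv, e, inv_mul_cancel])
    rw [show x = y * (y⁻¹ * x) by group, hi]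
    exact mul_mem (Subgroup.mem_sup_left hy)
      (Subgroup.mem_sup_right (zpow_mem (Subgroup.mem_zpowers _) i))
  have hc : commutator X ≤ S := by
    rw [commutator_def, Subgroup.commutator_le]
    intro a _ b _
    have dec : ∀ x : X, ∃ s ∈ S, ∀ y : X, Commute (s⁻¹ * x) y := by
      intro x
      obtain ⟨s, hs, e⟩ := htop (Subgroup.mem_top (r.proj x))
      obtain ⟨i, hi⟩ := r.exists_pow (x := s⁻¹ * x) (by rw [map_mul, map_inv, e, inv_mul_cancel])
      exact ⟨s, hs, fun y => hi ▸ (r.central y).zpow_left i⟩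
    obtain ⟨a', ha', ca⟩ := dec a
    obtain ⟨b', hb', cb⟩ := dec b
    have e : ⁅a, b⁆ = ⁅a', b'⁆ := by
      have h1 : ⁅a, b⁆ = a' * b * a'⁻¹ * b⁻¹ := by
        rw [commutatorElement_def]
        calc a * b * a⁻¹ * b⁻¹ = a' * ((a'⁻¹ * a) * b * (a'⁻¹ * a)⁻¹) * a'⁻¹ * b⁻¹ := by group
          _ = _ := by rw [(ca b).eq, mul_inv_cancel_right]
      have h2 : b * a'⁻¹ * b⁻¹ = b' * a'⁻¹ * b'⁻¹ := by
        calc b * a'⁻¹ * b⁻¹ = b' * ((b'⁻¹ * b) * a'⁻¹ * (b'⁻¹ * b)⁻¹) * b'⁻¹ := by group
          _ = _ := by rw [(cb a'⁻¹).eq, mul_inv_cancel_right]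
      rw [h1, commutatorElement_def, mul_assoc a', mul_assoc a', h2]
      group
    rw [e, commutatorElement_def]
    exact mul_mem (mul_mem (mul_mem ha' hb') (inv_mem ha')) (inv_mem hb')
  exact Subgroup.mem_bot.2 (r.fpf w (hc r.derived))

/-- A lift of an element of order five fixes exactly sixteen vectors, four in each of the fixed
spaces of the two hexad subgroups it normalises. -/
theorem exists_five_pair {x : X} (hx : x ^ 5 = 1) (h1 : r.proj x ≠ 1)
    (hb16 : Nat.card (r.fixed {x}) ≤ 16) :
    Nat.card (r.fixed {x}) = 16 ∧ ∃ a b : M,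
      conjS (r.proj x) (conjS a hex) = conjS a hex ∧
      conjS (r.proj x) (conjS b hex) = conjS b hex ∧
      Nat.card ↥(r.F (conjS a hex) ⊓ r.fixed {x}) = 4 ∧
      Nat.card ↥(r.F (conjS b hex) ⊓ r.fixed {x}) = 4 ∧
      r.F (conjS a hex) ⊓ r.F (conjS b hex) = ⊥ := by
  have := r.finite_W
  have hfour : ∀ a : M, conjS (r.proj x) (conjS a hex) = conjS a hex →
      Nat.card ↥(r.F (conjS a hex) ⊓ r.fixed {x}) = 4 := by
    intro a ha
    set S := r.F (conjS a hex)
    have hS : Nat.card S = 64 := by rw [r.card_F_conj, r.card_F_hex]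
    have h := r.card_fixed_modEq S x (fun w hw => r.F_invariant ha hw) (q := 5) (n := 1)
      (by norm_num) (by rwa [pow_one])
    obtain ⟨k, -, hk⟩ := r.exists_le_six (r.pinv_inf (r.pinv_fixed (r.liftSet (conjS a hex)))
      (r.pinv_fixed {x}))
    change Nat.card ↥(S ⊓ r.fixed {x}) = _ at hk
    have hle := (Subgroup.card_le_of_le (inf_le_right : S ⊓ r.fixed {x} ≤ r.fixed {x})).trans hb16
    rw [hS] at h
    rw [hk] at h hle ⊢
    have hk2 : k ≤ 2 := by
      by_contra h'
      have := (Nat.pow_le_pow_right (by norm_num : 0 < 4) (by omega : 3 ≤ k)).trans hle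
      norm_num at this
    interval_cases k
    · simp [Nat.ModEq] at h
    · rfl
    · simp [Nat.ModEq] at h
  -- the two subgroups
  haveI : Fact (Nat.Prime 5) := ⟨by norm_num⟩
  obtain ⟨m, hgen, hm⟩ := J4Five67.five_two_hex
  obtain ⟨hok, hn, -, -, -, -, -, -, h9, h10, -⟩ := hex_normal_data
  have hu0 : orderOf (el hexFive) = 5 :=
    orderOf_eq_prime (el_pow_five hok h10) fun h =>
      (bne_iff_ne.1 h9) (by rw [← (el_spec hok).1, h, cm_one])
  have hs : orderOf (r.proj x) = 5 := orderOf_eq_prime (by rw [← map_pow, hx, map_one]) h1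
  have hf : (Nat.card M).factorization 5 = 1 := by
    rw [CfsgLib.Mathieu.card_M22, show (443520 : ℕ) = 5 * 88704 by norm_num,
      Nat.factorization_mul (by norm_num) (by norm_num), Finsupp.add_apply,
      Nat.Prime.factorization_self (by norm_num),
      Nat.factorization_eq_zero_of_not_dvd (by norm_num : ¬(5 ∣ 88704))]
  obtain ⟨g, hg⟩ := MulAction.exists_smul_eq M
    (Sylow.ofCard (Subgroup.zpowers (el hexFive)) (by rw [Nat.card_zpowers, hu0, hf, pow_one]) :
      Sylow 5 M)
    (Sylow.ofCard (Subgroup.zpowers (r.proj x)) (by rw [Nat.card_zpowers, hs, hf, pow_one]))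
  have hmem : r.proj x ∈ conjS g (Subgroup.zpowers (el hexFive)) := by
    have e := congrArg Sylow.toSubgroup hg
    rw [Sylow.coe_subgroup_smul] at e
    change conjS g (Subgroup.zpowers (el hexFive)) = Subgroup.zpowers (r.proj x) at e
    rw [e]; exact Subgroup.mem_zpowers _
  have hinv : ∀ A : Subgroup M, conjS (el hexFive) A = A →
      conjS (r.proj x) (conjS g A) = conjS g A := by
    intro A hA
    have hle : Subgroup.zpowers (el hexFive) ≤ Subgroup.normalizer (A : Set M) := by
      refine Subgroup.zpowers_le.2 (Subgroup.mem_normalizer_iff.2 fun y => ?_)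
      conv_rhs => rw [← hA]
      simp [mem_conjS, mul_assoc]
    have hy := Subgroup.mem_normalizer_iff.1 (hle (mem_conjS.1 hmem))
    ext y
    rw [mem_conjS, mem_conjS, mem_conjS,
      hy (g⁻¹ * ((r.proj x)⁻¹ * y * r.proj x) * g)]
    simp [mul_assoc]
  have ha : conjS (r.proj x) (conjS g hex) = conjS g hex := hinv hex (conjS_eq basis_ok.1 hn)
  have hb : conjS (r.proj x) (conjS (g * m) hex) = conjS (g * m) hex := by
    have e : conjS (g * m) hex = conjS g (conjS m hex) := by
      simp only [conjS, Subgroup.map_map, map_mul]; rfl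
    rw [e]; exact hinv _ hm
  refine ⟨?_, g, g * m, ha, hb, hfour _ ha, hfour _ hb, ?_⟩
  · have h := r.card_fixed_modEq ⊤ x (fun w _ => Subgroup.mem_top _) (q := 5) (n := 1)
      (by norm_num) (by rwa [pow_one])
    rw [Subgroup.card_top, r.card, top_inf_eq] at h
    obtain ⟨k, -, hk⟩ := r.exists_le_six (r.pinv_fixed {x})
    have h4 := Subgroup.card_le_of_le (inf_le_right :
      r.F (conjS g hex) ⊓ r.fixed {x} ≤ r.fixed {x})
    rw [hfour _ ha] at h4
    rw [hk] at h h4 hb16 ⊢
    have hk2 : k ≤ 2 := by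
      by_contra h'
      have := (Nat.pow_le_pow_right (by norm_num : 0 < 4) (by omega : 3 ≤ k)).trans hb16
      norm_num at this
    interval_cases k
    · norm_num at h4
    · simp [Nat.ModEq] at h
    · rfl
  · have hsq : ∀ c : M, ∀ a ∈ conjS c hex, a * a = 1 := by
      rintro c _ ⟨b, hb', rfl⟩
      rw [← map_mul, sq_hex b hb', map_one]
    refine r.F_inf_eq_bot (hsq _) (hsq _) ?_
    have e : conjS (g * m) hex = conjS g (conjS m hex) := by
      simp only [conjS, Subgroup.map_map, map_mul]; rfl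
    rw [e, conjS, conjS, ← Subgroup.map_sup]
    change Subgroup.map _ (hex ⊔ conjS m hex) = ⊤
    rw [hgen, Subgroup.map_top_of_surjective _ (MulAut.conj g).surjective]

end CfsgLib.J4Type67.Rep
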